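import Mathlib
import Cfsg.Agent.Eq.Def_Classical
import Cfsg.Agent.Classical.Unitary.Isotropic

/-!
Hyperbolic frames `v, w, f` of a three dimensional unitary space: coordinates for the isotropic
points and for the stabiliser of an isotropic vector.
-/

set_option autoImplicit false

namespace CfsgLib.MinIndexPSU3

open Cfsg CfsgLib.Unitary
open scoped Matrix

variable {F : Type*} [Field F] {q : ℕ}

/-- A frame: `v, f` a hyperbolic pair and `w` of norm one orthogonal to both. -/
structure Frame (q : ℕ) (v w f : Fin 3 → F) : Prop where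
  vv : hermForm 3 F q v v = 0
  vw : hermForm 3 F q v w = 0
  vf : hermForm 3 F q v f = 1
  ww : hermForm 3 F q w w = 1
  wf : hermForm 3 F q w f = 0
  ff : hermForm 3 F q f f = 0

variable {v w f : Fin 3 → F}

theorem herm_swap_one [Fintype F] (hF : Fintype.card F = q ^ 2) {x y : Fin 3 → F}
    (h : hermForm 3 F q x y = 1) : hermForm 3 F q y x = 1 := by
  rw [herm_conj hF x y, h, one_pow]

theorem Frame.wv [Fintype F] (fr : Frame q v w f) (hF : Fintype.card F = q ^ 2) :
    hermForm 3 F q w v = 0 := herm_eq_zero_comm hF fr.vw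

theorem Frame.fv [Fintype F] (fr : Frame q v w f) (hF : Fintype.card F = q ^ 2) :
    hermForm 3 F q f v = 1 := herm_swap_one hF fr.vf

theorem Frame.fw [Fintype F] (fr : Frame q v w f) (hF : Fintype.card F = q ^ 2) :
    hermForm 3 F q f w = 0 := herm_eq_zero_comm hF fr.wf

/-- The coordinates of a linear combination of the frame vectors. -/
theorem Frame.coord [Fintype F] (fr : Frame q v w f) (hF : Fintype.card F = q ^ 2) (a b c : F) :
    hermForm 3 F q (a • v + b • w + c • f) f = a ∧
      hermForm 3 F q (a • v + b • w + c • f) w = b ∧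
      hermForm 3 F q (a • v + b • w + c • f) v = c := by
  refine ⟨?_, ?_, ?_⟩ <;>
    simp [herm_add_left, herm_smul_left, fr.vv, fr.vw, fr.vf, fr.ww, fr.wf, fr.ff, fr.wv hF, fr.fv hF,
      fr.fw hF]

theorem Frame.linearIndependent [Fintype F] (fr : Frame q v w f) (hF : Fintype.card F = q ^ 2) :
    LinearIndependent F ![v, w, f] := by
  rw [Fintype.linearIndependent_iff]
  intro g hg
  rw [Fin.sum_univ_three] at hg
  simp only [Matrix.cons_val_zero, Matrix.cons_val_one, Matrix.cons_val_two, Matrix.tail_cons,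
    Matrix.head_cons] at hg
  obtain ⟨h0, h1, h2⟩ := fr.coord hF (g 0) (g 1) (g 2)
  rw [hg, herm_zero_left] at h0 h1 h2
  intro i
  fin_cases i
  · exact h0.symm
  · exact h1.symm
  · exact h2.symm

theorem Frame.expand [Fintype F] (fr : Frame q v w f) (hF : Fintype.card F = q ^ 2) (x : Fin 3 → F) :
    x = hermForm 3 F q x f • v + hermForm 3 F q x w • w + hermForm 3 F q x v • f := by
  have hspan := (fr.linearIndependent hF).span_eq_top_of_card_eq_finrank (by simp)
  have hx : x ∈ Submodule.span F (Set.range ![v, w, f]) := hspan ▸ Submodule.mem_top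
  obtain ⟨g, hg⟩ := Submodule.mem_span_range_iff_exists_fun F |>.mp hx
  rw [Fin.sum_univ_three] at hg
  simp only [Matrix.cons_val_zero, Matrix.cons_val_one, Matrix.cons_val_two, Matrix.tail_cons,
    Matrix.head_cons] at hg
  obtain ⟨h0, h1, h2⟩ := fr.coord hF (g 0) (g 1) (g 2)
  rw [hg] at h0 h1 h2
  rw [h0, h1, h2, hg]

theorem Frame.v_ne [Fintype F] (fr : Frame q v w f) : v ≠ 0 := fun h => by
  have := fr.vf; rw [h, herm_zero_left] at this; exact zero_ne_one this

theorem Frame.w_ne [Fintype F] (fr : Frame q v w f) : w ≠ 0 := fun h => by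
  have := fr.ww; rw [h, herm_zero_left] at this; exact zero_ne_one this

theorem Frame.f_ne [Fintype F] (fr : Frame q v w f) (hF : Fintype.card F = q ^ 2) : f ≠ 0 := fun h => by
  have := fr.fv hF; rw [h, herm_zero_left] at this; exact zero_ne_one this

theorem Frame.map [Fintype F] (fr : Frame q v w f) (g : ↥(SU 3 F q)) :
    Frame q (sv g v) (sv g w) (sv g f) := by
  constructor <;> simp [sv_herm, fr.vv, fr.vw, fr.vf, fr.ww, fr.wf, fr.ff]

/-- The isotropic vectors `f + b w + c v`. -/
theorem Frame.herm_big [Fintype F] (fr : Frame q v w f) (hF : Fintype.card F = q ^ 2) (b c : F) :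
    hermForm 3 F q (f + b • w + c • v) (f + b • w + c • v) = c + c ^ q + b * b ^ q := by
  simp [herm_add_left, herm_add_right hF, herm_smul_left, herm_smul_right, fr.vv, fr.vw, fr.vf, fr.ww,
    fr.wf, fr.ff, fr.wv hF, fr.fv hF, fr.fw hF]
  ring

/-- Changing the partner `f` of a frame. -/
theorem Frame.shift [Fintype F] (fr : Frame q v w f) (hF : Fintype.card F = q ^ 2) {b c : F}
    (h : c + c ^ q + b * b ^ q = 0) :
    Frame q v (w - b ^ q • v) (f + b • w + c • v) := by
  refine ⟨fr.vv, ?_, ?_, ?_, ?_, ?_⟩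
  · simp [herm_sub_right hF, herm_smul_right, fr.vv, fr.vw]
  · simp [herm_add_right hF, herm_smul_right, fr.vv, fr.vw, fr.vf]
  · simp [herm_sub_left, herm_sub_right hF, herm_smul_left, herm_smul_right, fr.vv, fr.vw, fr.ww,
      fr.wv hF]
  · simp [herm_add_right hF, herm_sub_left, herm_smul_left, herm_smul_right, fr.vv, fr.vw, fr.vf, fr.ww,
      fr.wf, fr.wv hF]
  · rw [fr.herm_big hF, h]

variable [Fintype F]

theorem exists_c_of_b (hF : Fintype.card F = q ^ 2) (b : F) : ∃ c : F, c + c ^ q + b * b ^ q = 0 := by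
  obtain ⟨c, hc⟩ := exists_trace_eq hF (a := -(b * b ^ q))
    (by rw [neg_pow_q hF, mul_pow, pow_q_q hF, mul_comm])
  exact ⟨c, by rw [hc]; ring⟩

/-- An isotropic vector orthogonal to an isotropic vector is a multiple of it. -/
theorem Frame.eq_smul_of_perp (fr : Frame q v w f) (hF : Fintype.card F = q ^ 2) {y : Fin 3 → F}
    (hy : hermForm 3 F q y y = 0) (hvy : hermForm 3 F q y v = 0) :
    y = hermForm 3 F q y f • v := by
  have he := fr.expand hF y
  rw [hvy, zero_smul, add_zero] at he
  set a := hermForm 3 F q y f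
  set b := hermForm 3 F q y w
  have hb : b = 0 := by
    rw [he] at hy
    simp [herm_add_left, herm_add_right hF, herm_smul_left, herm_smul_right, fr.vv, fr.vw, fr.ww,
      fr.wv hF] at hy
    rcases hy with h | h
    · exact h.1
    · exact h
  rw [hb, zero_smul, add_zero] at he
  exact he

/-- A frame starting with a given isotropic vector. -/
theorem exists_frame (hF : Fintype.card F = q ^ 2) {v : Fin 3 → F} (hv0 : v ≠ 0)
    (hv : hermForm 3 F q v v = 0) : ∃ w f, Frame q v w f := by
  obtain ⟨e, he, -⟩ := exists_orthonorm_extend_univ hF (n := 3)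
    (f := fun i : Fin 0 => (Fin.elim0 i : Fin 3 → F)) (fun i => Fin.elim0 i)
  obtain ⟨c, hc⟩ := exists_norm_eq hF (a := (-1 : F)) (by rw [neg_pow_q hF, one_pow])
  obtain ⟨t, ht, ht2⟩ := exists_norm_one_ne_inv hF
  have h01 : (0 : Fin 3) ≠ 1 := by decide
  have h02 : (0 : Fin 3) ≠ 2 := by decide
  have h12 : (1 : Fin 3) ≠ 2 := by decide
  have hij : ∀ i j : Fin 3, hermForm 3 F q (e i) (e j) = if i = j then 1 else 0 := he
  set u := e 0 + c • e 1 with hu
  set g := e 0 + (c * t) • e 1 with hg
  have huu : hermForm 3 F q u u = 0 := by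
    simp [hu, herm_add_left, herm_add_right hF, herm_smul_left, herm_smul_right, hij, h01, Ne.symm h01]
    rw [← pow_succ, hc]; ring
  have hgg : hermForm 3 F q g g = 0 := by
    simp [hg, herm_add_left, herm_add_right hF, herm_smul_left, herm_smul_right, hij, h01, Ne.symm h01]
    rw [← pow_succ, mul_pow, hc, ht]; ring
  have hug : hermForm 3 F q u g = 1 - t ^ q := by
    simp [hu, hg, herm_add_left, herm_add_right hF, herm_smul_left, herm_smul_right, hij, h01,
      Ne.symm h01, mul_pow]
    rw [show c ^ q * t ^ q * c = c ^ (q + 1) * t ^ q by ring, hc]; ring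
  have hne : (1 : F) - t ^ q ≠ 0 := by
    intro h
    have h1 : t = 1 := by
      have := pow_q_q hF t
      rwa [← sub_eq_zero.mp h, one_pow, eq_comm] at this
    exact ht2 (by rw [h1, one_pow])
  set l := ((1 - t ^ q)⁻¹) ^ q with hl
  have fr : Frame q u (e 2) (l • g) := by
    refine ⟨huu, ?_, ?_, by simp [hij], ?_, ?_⟩
    · simp [hu, herm_add_left, herm_smul_left, hij, h02, h12]
    · rw [herm_smul_right, hug, hl, pow_q_q hF, inv_mul_cancel₀ hne]
    · simp [hg, herm_add_right hF, herm_smul_right, hij, Ne.symm h02, Ne.symm h12]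
    · rw [herm_smul_left, herm_smul_right, hgg, mul_zero, mul_zero]
  obtain ⟨A, hA⟩ := exists_SU_map_isotropic hF le_rfl fr.v_ne hv0 huu hv
  exact ⟨_, _, hA ▸ fr.map A⟩

/-- A frame through two isotropic points. -/
theorem exists_frame_pair (hF : Fintype.card F = q ^ 2) {v y : Fin 3 → F} (hv0 : v ≠ 0)
    (hv : hermForm 3 F q v v = 0) (hy : hermForm 3 F q y y = 0) (hne : ∀ a : F, y ≠ a • v) :
    ∃ w f, ∃ l : F, l ≠ 0 ∧ Frame q v w f ∧ f = l • y := by
  obtain ⟨w, f, fr⟩ := exists_frame hF hv0 hv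
  set g := hermForm 3 F q y v with hg
  have hg0 : g ≠ 0 := fun h => hne _ (fr.eq_smul_of_perp hF hy h)
  set b := g⁻¹ * hermForm 3 F q y w with hb
  set c := g⁻¹ * hermForm 3 F q y f with hc
  have e : g⁻¹ • y = f + b • w + c • v := by
    conv_lhs => rw [fr.expand hF y]
    rw [smul_add, smul_add, smul_smul, smul_smul, smul_smul, ← hg, inv_mul_cancel₀ hg0, one_smul]
    abel
  have hbc : c + c ^ q + b * b ^ q = 0 := by
    rw [← fr.herm_big hF, ← e, herm_smul_left, herm_smul_right, hy, mul_zero, mul_zero]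
  exact ⟨_, _, g⁻¹, inv_ne_zero hg0, fr.shift hF hbc, e.symm⟩

/-- A frame through an isotropic point and a norm one vector orthogonal to it. -/
theorem exists_frame_mid (hF : Fintype.card F = q ^ 2) {v u : Fin 3 → F} (hv0 : v ≠ 0)
    (hv : hermForm 3 F q v v = 0) (hu : hermForm 3 F q u u = 1) (huv : hermForm 3 F q u v = 0) :
    ∃ f, Frame q v u f := by
  obtain ⟨w, f, fr⟩ := exists_frame hF hv0 hv
  have he := fr.expand hF u
  rw [huv, zero_smul, add_zero] at he
  set l := hermForm 3 F q u f
  set m := hermForm 3 F q u w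
  have hm : m * m ^ q = 1 := by
    rw [he] at hu
    simp [herm_add_left, herm_add_right hF, herm_smul_left, herm_smul_right, fr.vv, fr.vw, fr.ww,
      fr.wv hF] at hu
    linear_combination hu
  have fr' : Frame q v (m • w) f := ⟨fr.vv, by rw [herm_smul_right, fr.vw, mul_zero], fr.vf,
    by rw [herm_smul_left, herm_smul_right, fr.ww, mul_one, hm],
    by rw [herm_smul_left, fr.wf, mul_zero], fr.ff⟩
  set b := (-l) ^ q with hb
  obtain ⟨c, hc⟩ := exists_c_of_b hF b
  refine ⟨f + b • (m • w) + c • v, ?_⟩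
  have : u = m • w - b ^ q • v := by
    rw [hb, pow_q_q hF, neg_smul, sub_neg_eq_add, he, add_comm]
  rw [this]
  exact fr'.shift hF hc

/-- An upper triangular element has eigenvalue product one. -/
theorem Frame.det_eq (fr : Frame q v w f) (hF : Fintype.card F = q ^ 2) (g : ↥(SU 3 F q))
    {a al m ga de ep : F} (hv : sv g v = a • v) (hw : sv g w = al • v + m • w)
    (hf : sv g f = ga • v + de • w + ep • f) : a * m * ep = 1 := by
  set P : Matrix (Fin 3) (Fin 3) F := Matrix.of fun i j => ![v, w, f] j i with hP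
  set T : Matrix (Fin 3) (Fin 3) F := !![a, al, ga; 0, m, de; 0, 0, ep] with hT
  have hPdet : P.det ≠ 0 := by
    have h1 : LinearIndependent F P.col := fr.linearIndependent hF
    exact ((Matrix.isUnit_iff_isUnit_det P).1 (Matrix.linearIndependent_cols_iff_isUnit.1 h1)).ne_zero
  have heq : ((g : Matrix.SpecialLinearGroup (Fin 3) F) : Matrix (Fin 3) (Fin 3) F) * P = P * T := by
    ext i j
    have key : ∀ x : Fin 3 → F, ∑ k, ((g : Matrix.SpecialLinearGroup (Fin 3) F) :
        Matrix (Fin 3) (Fin 3) F) i k * x k = sv g x i := fun x => rfl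
    rw [Matrix.mul_apply]
    show ∑ k, _ * ![v, w, f] j k = _
    rw [key]
    fin_cases j <;>
      simp [hv, hw, hf, hP, hT, Matrix.mul_apply, Fin.sum_univ_three] <;> ring
  have hd := congrArg Matrix.det heq
  rw [Matrix.det_mul, Matrix.det_mul, (g : Matrix.SpecialLinearGroup (Fin 3) F).2, one_mul,
    Matrix.det_fin_three T] at hd
  have hT1 : T 0 0 * T 1 1 * T 2 2 - T 0 0 * T 1 2 * T 2 1 - T 0 1 * T 1 0 * T 2 2
      + T 0 1 * T 1 2 * T 2 0 + T 0 2 * T 1 0 * T 2 1 - T 0 2 * T 1 1 * T 2 0 = 1 :=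
    mul_left_cancel₀ hPdet (by rw [mul_one]; exact hd.symm)
  simpa [hT] using hT1

end CfsgLib.MinIndexPSU3
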