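import Mathlib
import Cfsg.Agent.MinIndexPSU3.Frame

/-!
The isotropic points of a three dimensional unitary space and the stabiliser of one of them.
-/

set_option autoImplicit false

namespace CfsgLib.MinIndexPSU3

open Cfsg CfsgLib.Unitary
open scoped Matrix

variable {F : Type*} [Field F] {q : ℕ}

/-- The isotropic points. -/
def Pt (q : ℕ) (F : Type*) [Field F] : Type _ :=
  {L : Submodule F (Fin 3 → F) //
    ∃ x, x ≠ 0 ∧ hermForm 3 F q x x = 0 ∧ L = Submodule.span F {x}}

/-- The point of an isotropic vector. -/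
def pt (x : Fin 3 → F) (h0 : x ≠ 0) (hx : hermForm 3 F q x x = 0) : Pt q F :=
  ⟨Submodule.span F {x}, x, h0, hx, rfl⟩

theorem exists_eq_pt (L : Pt q F) : ∃ x h0, ∃ hx : hermForm 3 F q x x = 0, L = pt x h0 hx := by
  obtain ⟨x, h0, hx, hL⟩ := L.2
  exact ⟨x, h0, hx, Subtype.ext hL⟩

theorem pt_eq_pt_iff {x y : Fin 3 → F} {hx0 : x ≠ 0} {hx : hermForm 3 F q x x = 0} {hy0 : y ≠ 0}
    {hy : hermForm 3 F q y y = 0} : pt x hx0 hx = pt y hy0 hy ↔ ∃ a : F, x = a • y := by
  constructor
  · intro h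
    have h' : Submodule.span F {x} = Submodule.span F {y} := congrArg Subtype.val h
    have : x ∈ Submodule.span F {y} := h' ▸ Submodule.mem_span_singleton_self x
    obtain ⟨a, ha⟩ := Submodule.mem_span_singleton.mp this
    exact ⟨a, ha.symm⟩
  · rintro ⟨a, rfl⟩
    refine Subtype.ext (Submodule.span_singleton_smul_eq (IsUnit.mk0 a ?_) y)
    rintro rfl
    exact hx0 (zero_smul _ _)

variable [Fintype F]

instance : Finite (Pt q F) :=
  haveI : Finite (Submodule F (Fin 3 → F)) := Finite.of_injective _ SetLike.coe_injective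
  Subtype.finite

/-- The linear map of an element of `SU`. -/
def toLin (g : ↥(SU 3 F q)) : (Fin 3 → F) →ₗ[F] (Fin 3 → F) :=
  ((g : Matrix.SpecialLinearGroup (Fin 3) F) : Matrix (Fin 3) (Fin 3) F).mulVecLin

theorem toLin_apply (g : ↥(SU 3 F q)) (x : Fin 3 → F) : toLin g x = sv g x := rfl

theorem sv_ne_zero (g : ↥(SU 3 F q)) {x : Fin 3 → F} (h0 : x ≠ 0) : sv g x ≠ 0 := fun h => h0 (by
  rw [← sv_inv_sv g x, h]
  exact Matrix.mulVec_zero _)

instance : MulAction ↥(SU 3 F q) (Pt q F) where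
  smul g L := ⟨L.1.map (toLin g), by
    obtain ⟨x, hx0, hx, hL⟩ := L.2
    refine ⟨sv g x, sv_ne_zero g hx0, herm_sv_self_eq_zero g hx, ?_⟩
    rw [hL, Submodule.map_span, Set.image_singleton, toLin_apply]⟩
  one_smul L := Subtype.ext (by
    show L.1.map (toLin (1 : ↥(SU 3 F q))) = L.1
    rw [show toLin (1 : ↥(SU 3 F q)) = LinearMap.id from LinearMap.ext fun x => sv_one x,
      Submodule.map_id])
  mul_smul g h L := Subtype.ext (by
    show L.1.map (toLin (g * h)) = (L.1.map (toLin h)).map (toLin g)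
    rw [← Submodule.map_comp]
    exact congrArg (fun f => L.1.map f) (LinearMap.ext fun x => sv_mul g h x))

theorem smul_pt (g : ↥(SU 3 F q)) {x : Fin 3 → F} (h0 : x ≠ 0) (hx : hermForm 3 F q x x = 0) :
    g • pt x h0 hx = pt (sv g x) (sv_ne_zero g h0) (herm_sv_self_eq_zero g hx) :=
  Subtype.ext (by
    show (Submodule.span F {x}).map (toLin g) = Submodule.span F {sv g x}
    rw [Submodule.map_span, Set.image_singleton, toLin_apply])

theorem smul_pt_eq_iff (g : ↥(SU 3 F q)) {x : Fin 3 → F} (h0 : x ≠ 0)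
    (hx : hermForm 3 F q x x = 0) : g • pt x h0 hx = pt x h0 hx ↔ ∃ a : F, sv g x = a • x := by
  rw [smul_pt, pt_eq_pt_iff]

theorem isPretransitive (hF : Fintype.card F = q ^ 2) :
    MulAction.IsPretransitive ↥(SU 3 F q) (Pt q F) := by
  refine ⟨fun L M => ?_⟩
  obtain ⟨x, hx0, hx, rfl⟩ := exists_eq_pt L
  obtain ⟨y, hy0, hy, rfl⟩ := exists_eq_pt M
  obtain ⟨A, hA⟩ := exists_SU_map_isotropic hF le_rfl hx0 hy0 hx hy
  exact ⟨A, by rw [smul_pt, pt_eq_pt_iff]; exact ⟨1, by rw [one_smul, hA]⟩⟩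

variable {v w f : Fin 3 → F}

/-- The isotropic vectors in coordinates. -/
theorem Frame.eq_big (fr : Frame q v w f) (hF : Fintype.card F = q ^ 2) {y : Fin 3 → F}
    (hy : hermForm 3 F q y y = 0) :
    (∃ a : F, y = a • v) ∨
      ∃ a b c : F, c + c ^ q + b * b ^ q = 0 ∧ y = a • (f + b • w + c • v) ∧
        (hermForm 3 F q y w = 0 → b = 0) := by
  by_cases hg : hermForm 3 F q y v = 0
  · exact Or.inl ⟨_, fr.eq_smul_of_perp hF hy hg⟩
  refine Or.inr ⟨hermForm 3 F q y v, (hermForm 3 F q y v)⁻¹ * hermForm 3 F q y w,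
    (hermForm 3 F q y v)⁻¹ * hermForm 3 F q y f, ?_, ?_, fun h => by rw [h, mul_zero]⟩
  · have e : f + ((hermForm 3 F q y v)⁻¹ * hermForm 3 F q y w) • w +
        ((hermForm 3 F q y v)⁻¹ * hermForm 3 F q y f) • v = (hermForm 3 F q y v)⁻¹ • y := by
      conv_rhs => arg 2; rw [fr.expand hF y]
      rw [smul_add, smul_add, smul_smul, smul_smul, smul_smul, inv_mul_cancel₀ hg, one_smul]
      abel
    rw [← fr.herm_big hF, e, herm_smul_left, herm_smul_right, hy, mul_zero, mul_zero]
  · conv_lhs => rw [fr.expand hF y]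
    rw [smul_add, smul_add, smul_smul, smul_smul, ← mul_assoc, ← mul_assoc, mul_inv_cancel₀ hg,
      one_mul, one_mul]
    abel

theorem Frame.big_ne (fr : Frame q v w f) (hF : Fintype.card F = q ^ 2) (b c : F) :
    f + b • w + c • v ≠ 0 := by
  intro h
  have h1 := (fr.coord hF c b 1).2.2
  rw [show c • v + b • w + (1 : F) • f = f + b • w + c • v by rw [one_smul]; abel, h, herm_zero_left] at h1
  exact zero_ne_one h1

/-- The points other than `v`, by coordinates. -/
def Frame.bigPt (fr : Frame q v w f) (hF : Fintype.card F = q ^ 2)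
    (z : Option (Σ b : F, {c : F // c + c ^ q + b * b ^ q = 0})) : Pt q F :=
  match z with
  | none => pt v fr.v_ne fr.vv
  | some ⟨b, c, h⟩ => pt (f + b • w + c • v) (fr.big_ne hF b c) (by rw [fr.herm_big hF, h])

theorem Frame.bigPt_bijective (fr : Frame q v w f) (hF : Fintype.card F = q ^ 2) :
    Function.Bijective (fr.bigPt hF) := by
  constructor
  · have hne : ∀ (b c a : F), f + b • w + c • v ≠ a • v := by
      intro b c a h
      have h1 := (fr.coord hF c b 1).2.2
      rw [show c • v + b • w + (1 : F) • f = f + b • w + c • v by rw [one_smul]; abel, h,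
        herm_smul_left, fr.vv, mul_zero] at h1
      exact zero_ne_one h1
    rintro (_ | ⟨b, c, h⟩) (_ | ⟨b', c', h'⟩) he
    · rfl
    · simp only [Frame.bigPt] at he
      obtain ⟨a, ha⟩ := pt_eq_pt_iff.mp he.symm
      exact absurd ha (hne _ _ _)
    · simp only [Frame.bigPt] at he
      obtain ⟨a, ha⟩ := pt_eq_pt_iff.mp he
      exact absurd ha (hne _ _ _)
    · simp only [Frame.bigPt] at he
      obtain ⟨a, ha⟩ := pt_eq_pt_iff.mp he
      obtain ⟨k1, k2, k3⟩ := fr.coord hF c b 1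
      obtain ⟨k1', k2', k3'⟩ := fr.coord hF c' b' 1
      rw [show c • v + b • w + (1 : F) • f = f + b • w + c • v by rw [one_smul]; abel, ha,
        herm_smul_left] at k1 k2 k3
      rw [show c' • v + b' • w + (1 : F) • f = f + b' • w + c' • v by rw [one_smul]; abel] at k1' k2' k3'
      rw [k1'] at k1
      rw [k2'] at k2
      rw [k3', mul_one] at k3
      subst k3
      rw [one_mul] at k1 k2
      subst k1 k2
      rfl
  · intro L
    obtain ⟨y, hy0, hy, rfl⟩ := exists_eq_pt L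
    rcases fr.eq_big hF hy with ⟨a, ha⟩ | ⟨a, b, c, hbc, ha, -⟩
    · exact ⟨none, ((pt_eq_pt_iff (hy0 := fr.v_ne) (hy := fr.vv)).mpr ⟨a, ha⟩).symm⟩
    · exact ⟨some ⟨b, c, hbc⟩, ((pt_eq_pt_iff (hy0 := fr.big_ne hF b c)
        (hy := by rw [fr.herm_big hF, hbc])).mpr ⟨a, ha⟩).symm⟩

theorem card_trace_fibre (hF : Fintype.card F = q ^ 2) (b : F) :
    Nat.card {c : F // c + c ^ q + b * b ^ q = 0} = q := by
  obtain ⟨c₀, hc₀⟩ := exists_c_of_b hF b
  refine (Nat.card_congr (Equiv.subtypeEquiv (Equiv.subRight c₀) fun c => ?_)).trans (card_trace_zero hF)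
  rw [Equiv.subRight_apply, sub_pow_q hF]
  constructor <;> intro h
  · linear_combination h - hc₀
  · linear_combination h + hc₀

theorem card_Pt (hF : Fintype.card F = q ^ 2) : Nat.card (Pt q F) = q ^ 3 + 1 := by
  classical
  obtain ⟨c, hc⟩ := exists_norm_eq hF (a := (-1 : F)) (by rw [neg_pow_q hF, one_pow])
  set u : Fin 3 → F := Pi.single 0 1 + c • Pi.single 1 1 with hu
  have h01 : (0 : Fin 3) ≠ 1 := by decide
  have huu : hermForm 3 F q u u = 0 := by
    simp [hu, herm_add_left, herm_add_right hF, herm_smul_left, herm_smul_right, herm_single_single hF,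
      h01, Ne.symm h01]
    rw [← pow_succ, hc]; ring
  have hu0 : u ≠ 0 := fun h => by
    have := congrFun h 0
    simp [hu, h01] at this
  obtain ⟨w, f, fr⟩ := exists_frame hF hu0 huu
  rw [← Nat.card_eq_of_bijective _ (fr.bigPt_bijective hF), Finite.card_option, Nat.card_sigma]
  simp_rw [card_trace_fibre hF]
  rw [Finset.sum_const, Finset.card_univ, hF, smul_eq_mul]
  ring

/-- An element fixing the point `v` is triangular. -/
theorem Frame.triangular (fr : Frame q v w f) (hF : Fintype.card F = q ^ 2) (g : ↥(SU 3 F q)) {a : F}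
    (ha : sv g v = a • v) :
    a ≠ 0 ∧ ∃ al m ga de ep : F, sv g w = al • v + m • w ∧ sv g f = ga • v + de • w + ep • f ∧
      a * m = a ^ q ∧ ep * a ^ q = 1 := by
  have ha0 : a ≠ 0 := by
    rintro rfl
    exact sv_ne_zero g fr.v_ne (by rw [ha, zero_smul])
  have h1 : hermForm 3 F q (sv g w) v = 0 := by
    have := sv_herm g w v
    rw [ha, herm_smul_right, fr.wv hF] at this
    exact (mul_eq_zero.mp this).resolve_left (pow_ne_zero q ha0)
  have h2 : a ^ q * hermForm 3 F q (sv g f) v = 1 := by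
    have := sv_herm g f v
    rwa [ha, herm_smul_right, fr.fv hF] at this
  have e1 := fr.expand hF (sv g w)
  rw [h1, zero_smul, add_zero] at e1
  have e2 := fr.expand hF (sv g f)
  refine ⟨ha0, _, _, _, _, _, e1, e2, ?_, by rw [mul_comm]; exact h2⟩
  have h3 := fr.det_eq hF g ha e1 e2
  set m := hermForm 3 F q (sv g w) w
  set ep := hermForm 3 F q (sv g f) v
  linear_combination (a ^ q) * h3 - (a * m) * h2

/-- The `w` coordinate of an element fixing `v`. -/
def bCoord (q : ℕ) (w f : Fin 3 → F) (g : ↥(SU 3 F q)) : F := hermForm 3 F q (sv g f) w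

/-- The `v` coordinate of an element fixing `v`. -/
def cCoord (q : ℕ) (f : Fin 3 → F) (g : ↥(SU 3 F q)) : F := hermForm 3 F q (sv g f) f

theorem Frame.unip (fr : Frame q v w f) (hF : Fintype.card F = q ^ 2) {g : ↥(SU 3 F q)}
    (hg : sv g v = v) :
    sv g w = w - (bCoord q w f g) ^ q • v ∧
      sv g f = f + bCoord q w f g • w + cCoord q f g • v ∧
      cCoord q f g + cCoord q f g ^ q + bCoord q w f g * bCoord q w f g ^ q = 0 := by
  obtain ⟨-, al, m, ga, de, ep, hw, hf, hm, hep⟩ := fr.triangular hF g (a := 1) (by rw [one_smul, hg])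
  rw [one_pow, mul_one] at hep
  rw [one_pow, one_mul] at hm
  subst hm hep
  rw [one_smul] at hw hf
  have hb : bCoord q w f g = de := by
    rw [bCoord, hf]
    simpa using (fr.coord hF ga de 1).2.1
  have hc : cCoord q f g = ga := by
    rw [cCoord, hf]
    simpa using (fr.coord hF ga de 1).1
  have hal : al = -(de ^ q) := by
    have := sv_herm g w f
    rw [hw, hf, fr.wf] at this
    simp [herm_add_left, herm_add_right hF, herm_smul_left, herm_smul_right, fr.vv, fr.vw, fr.vf, fr.ww,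
      fr.wf, fr.wv hF] at this
    linear_combination this
  rw [hb, hc]
  refine ⟨by rw [hw, hal, neg_smul]; abel, by rw [hf]; abel, ?_⟩
  rw [← fr.herm_big hF, ← show ga • v + de • w + f = f + de • w + ga • v by abel, ← hf, sv_herm, fr.ff]

theorem Frame.coord_mul (fr : Frame q v w f) (hF : Fintype.card F = q ^ 2) {g h : ↥(SU 3 F q)}
    (hg : sv g v = v) (hh : sv h v = v) :
    bCoord q w f (g * h) = bCoord q w f g + bCoord q w f h ∧
      cCoord q f (g * h) = cCoord q f g + cCoord q f h - bCoord q w f g ^ q * bCoord q w f h := by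
  obtain ⟨gw, gf, -⟩ := fr.unip hF hg
  obtain ⟨-, hf, -⟩ := fr.unip hF hh
  set b := bCoord q w f g
  set c := cCoord q f g
  set b' := bCoord q w f h
  set c' := cCoord q f h
  have e : sv (g * h) f = (c + c' - b ^ q * b') • v + (b + b') • w + (1 : F) • f := by
    rw [sv_mul, hf, sv_add, sv_add, sv_smul, sv_smul, hg, gw, gf]
    module
  obtain ⟨k1, k2, -⟩ := fr.coord hF (c + c' - b ^ q * b') (b + b') 1
  exact ⟨by rw [bCoord, e, k2], by rw [cCoord, e, k1]⟩

theorem Frame.unip_ext (fr : Frame q v w f) (hF : Fintype.card F = q ^ 2) {g : ↥(SU 3 F q)}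
    (hg : sv g v = v) (hb : bCoord q w f g = 0) (hc : cCoord q f g = 0) : g = 1 := by
  obtain ⟨gw, gf, -⟩ := fr.unip hF hg
  rw [hb, zero_pow_q hF, zero_smul, sub_zero] at gw
  rw [hb, hc, zero_smul, zero_smul, add_zero, add_zero] at gf
  refine sv_ext fun x => ?_
  rw [sv_one]
  conv_lhs => arg 2; rw [fr.expand hF x]
  rw [sv_add, sv_add, sv_smul, sv_smul, sv_smul, hg, gw, gf, ← fr.expand hF x]

theorem Frame.coord_pow (fr : Frame q v w f) (hF : Fintype.card F = q ^ 2) {g : ↥(SU 3 F q)}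
    (hg : sv g v = v) : ∀ k : ℕ, sv (g ^ k) v = v ∧ bCoord q w f (g ^ k) = k * bCoord q w f g ∧
      (bCoord q w f g = 0 → cCoord q f (g ^ k) = k * cCoord q f g) := by
  intro k
  induction k with
  | zero => simp [bCoord, cCoord, fr.fw hF, fr.ff]
  | succ k ih =>
    obtain ⟨h1, h2, h3⟩ := ih
    obtain ⟨m1, m2⟩ := fr.coord_mul hF h1 hg
    refine ⟨by rw [pow_succ, sv_mul, hg, h1], by rw [pow_succ, m1, h2]; push_cast; ring, fun hb => ?_⟩
    rw [pow_succ, m2, h3 hb, hb, mul_zero, sub_zero]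
    push_cast; ring

/-- The stabiliser of an isotropic vector has exponent dividing `p²`. -/
theorem Frame.pow_sq_eq_one (fr : Frame q v w f) (hF : Fintype.card F = q ^ 2) (p : ℕ) [CharP F p]
    {g : ↥(SU 3 F q)} (hg : sv g v = v) : g ^ p ^ 2 = 1 := by
  obtain ⟨h1, h2, -⟩ := fr.coord_pow hF hg p
  rw [CharP.cast_eq_zero, zero_mul] at h2
  obtain ⟨k1, k2, k3⟩ := fr.coord_pow hF h1 p
  rw [h2, mul_zero] at k2
  rw [pow_two, pow_mul]
  exact fr.unip_ext hF k1 k2 (by rw [k3 h2, CharP.cast_eq_zero, zero_mul])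

/-- An element of prime power order in the characteristic fixing a point fixes its vector. -/
theorem sv_eq_self_of_pow (p : ℕ) [Fact p.Prime] [CharP F p] {g : ↥(SU 3 F q)} {j : ℕ}
    (hg : g ^ p ^ j = 1) {x : Fin 3 → F} (hx0 : x ≠ 0) {a : F} (ha : sv g x = a • x) : sv g x = x := by
  have hk : ∀ k : ℕ, sv (g ^ k) x = a ^ k • x := fun k => by
    induction k with
    | zero => simp
    | succ k ih => rw [pow_succ, sv_mul, ha, sv_smul, ih, smul_smul, ← pow_succ']
  have h1 := hk (p ^ j)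
  rw [hg, sv_one] at h1
  have h2 : a ^ p ^ j = 1 := by
    have h3 : (a ^ p ^ j - 1) • x = 0 := by rw [sub_smul, one_smul, ← h1, sub_self]
    exact sub_eq_zero.mp ((smul_eq_zero.mp h3).resolve_right hx0)
  have h3 : (a - 1) ^ p ^ j = 0 := by rw [sub_pow_char_pow, h2, one_pow, sub_self]
  rw [ha, sub_eq_zero.mp (pow_eq_zero_iff (pow_ne_zero j (Fact.out : p.Prime).ne_zero) |>.mp h3), one_smul]

/-- A non-trivial element of order a power of the characteristic fixes at most one point. -/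
theorem fixed_unique (hF : Fintype.card F = q ^ 2) (p : ℕ) [Fact p.Prime] [CharP F p]
    {g : ↥(SU 3 F q)} {j : ℕ} (hg : g ^ p ^ j = 1) (hg1 : g ≠ 1) {L M : Pt q F} (hL : g • L = L)
    (hM : g • M = M) : L = M := by
  obtain ⟨x, hx0, hx, rfl⟩ := exists_eq_pt L
  obtain ⟨y, hy0, hy, rfl⟩ := exists_eq_pt M
  by_contra hne
  have hne' : ∀ a : F, y ≠ a • x := fun a h => hne (pt_eq_pt_iff.mpr ⟨a, h⟩).symm
  obtain ⟨w, f, l, hl, fr, hf⟩ := exists_frame_pair hF hx0 hx hy hne'
  obtain ⟨a, ha⟩ := (smul_pt_eq_iff g hx0 hx).mp hL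
  obtain ⟨b, hb⟩ := (smul_pt_eq_iff g hy0 hy).mp hM
  have hgv := sv_eq_self_of_pow p hg hx0 ha
  have hgy := sv_eq_self_of_pow p hg hy0 hb
  have hgf : sv g f = f := by rw [hf, sv_smul, hgy]
  exact hg1 (fr.unip_ext hF hgv (by rw [bCoord, hgf, fr.fw hF]) (by rw [cCoord, hgf, fr.ff]))

/-- The action of the torus on the coordinates. -/
theorem Frame.coord_conj (fr : Frame q v w f) (hF : Fintype.card F = q ^ 2) {h g : ↥(SU 3 F q)}
    {a : F} (ha : sv h v = a • v) (hg : sv g v = v) :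
    sv (h * g * h⁻¹) v = v ∧
      bCoord q w f (h * g * h⁻¹) * a = bCoord q w f g * (a ^ q * a ^ q) ∧
      (bCoord q w f g = 0 → bCoord q w f (h * g * h⁻¹) = 0 ∧
        cCoord q f (h * g * h⁻¹) = cCoord q f g * a ^ (q + 1)) := by
  obtain ⟨ha0, al, m, ga, de, ep, hw, hf, hm, hep⟩ := fr.triangular hF h ha
  set g' := h * g * h⁻¹ with hg'
  have hmul : g' * h = h * g := by rw [hg']; group
  have hv' : sv g' v = v := by
    have h1 : sv g' (sv h v) = sv h v := by rw [← sv_mul, hmul, sv_mul, hg]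
    rw [ha, sv_smul] at h1
    exact smul_right_injective _ ha0 h1
  obtain ⟨g'w, g'f, -⟩ := fr.unip hF hv'
  obtain ⟨-, gf, -⟩ := fr.unip hF hg
  set b' := bCoord q w f g'
  set c' := cCoord q f g'
  set b := bCoord q w f g
  set c := cCoord q f g
  have key : sv g' (sv h f) = sv h (sv g f) := by rw [← sv_mul, hmul, sv_mul]
  rw [hf, gf, sv_add, sv_add, sv_smul, sv_smul, sv_smul, sv_add, sv_add, sv_smul, sv_smul, hv', g'w,
    g'f, ha, hw, hf] at key
  have key' : (ga - de * b' ^ q + ep * c') • v + (de + ep * b') • w + ep • f =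
      (ga + b * al + c * a) • v + (de + b * m) • w + ep • f := by
    linear_combination (norm := module) key
  obtain ⟨l1, l2, -⟩ := fr.coord hF (ga - de * b' ^ q + ep * c') (de + ep * b') ep
  obtain ⟨r1, r2, -⟩ := fr.coord hF (ga + b * al + c * a) (de + b * m) ep
  rw [key'] at l1 l2
  rw [r1] at l1
  rw [r2] at l2
  have hb' : b' * a = b * (a ^ q * a ^ q) := by
    linear_combination (-a * a ^ q) * l2 - (b' * a) * hep + (b * a ^ q) * hm
  refine ⟨hv', hb', fun hb0 => ?_⟩
  have hb'0 : b' = 0 := by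
    rw [hb0, zero_mul] at hb'
    exact (mul_eq_zero.mp hb').resolve_right ha0
  refine ⟨hb'0, ?_⟩
  rw [hb0, hb'0, zero_pow_q hF] at l1
  linear_combination (-(a ^ q)) * l1 - c' * hep

end CfsgLib.MinIndexPSU3
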