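import Mathlib
import Cfsg.Agent.MinIndexPSU3.Stab
import Cfsg.Agent.Classical.Unitary.Generation
import Cfsg.Agent.Classical.Unitary.Order

/-!
A subgroup of small index of `SU₃(q)` is transitive on the isotropic points; the structure of its
point stabilisers.
-/

set_option autoImplicit false

namespace CfsgLib.MinIndexPSU3

open Cfsg CfsgLib.Unitary MulAction
open scoped Matrix Pointwise

variable {F : Type*} [Field F] {q : ℕ}

/-- The elements fixing the line of a vector. -/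
def lineStab (H : Subgroup ↥(SU 3 F q)) (v : Fin 3 → F) : Subgroup ↥(SU 3 F q) where
  carrier := {g | g ∈ H ∧ ∃ a : F, a ≠ 0 ∧ sv g v = a • v}
  one_mem' := ⟨one_mem H, 1, one_ne_zero, by rw [sv_one, one_smul]⟩
  mul_mem' := fun {g h} ⟨hg, a, ha, hga⟩ ⟨hh, b, hb, hhb⟩ =>
    ⟨mul_mem hg hh, b * a, mul_ne_zero hb ha, by rw [sv_mul, hhb, sv_smul, hga, smul_smul]⟩
  inv_mem' := fun {g} ⟨hg, a, ha, hga⟩ => ⟨inv_mem hg, a⁻¹, inv_ne_zero ha, by
    have h1 := sv_inv_sv g v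
    rw [hga, sv_smul] at h1
    calc sv g⁻¹ v = a⁻¹ • a • sv g⁻¹ v := by rw [inv_smul_smul₀ ha]
      _ = a⁻¹ • v := by rw [h1]⟩

/-- The elements fixing a vector. -/
def fixV (H : Subgroup ↥(SU 3 F q)) (v : Fin 3 → F) : Subgroup ↥(SU 3 F q) where
  carrier := {g | g ∈ H ∧ sv g v = v}
  one_mem' := ⟨one_mem H, sv_one v⟩
  mul_mem' := fun {g h} ⟨hg, hgv⟩ ⟨hh, hhv⟩ => ⟨mul_mem hg hh, by rw [sv_mul, hhv, hgv]⟩
  inv_mem' := fun {g} ⟨hg, hgv⟩ => ⟨inv_mem hg, by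
    calc sv g⁻¹ v = sv g⁻¹ (sv g v) := by rw [hgv]
      _ = v := sv_inv_sv g v⟩

/-- The elements fixing every vector orthogonal to `v`. -/
def rootV (H : Subgroup ↥(SU 3 F q)) (v : Fin 3 → F) : Subgroup ↥(SU 3 F q) where
  carrier := {g | g ∈ H ∧ ∀ x, hermForm 3 F q x v = 0 → sv g x = x}
  one_mem' := ⟨one_mem H, fun x _ => sv_one x⟩
  mul_mem' := fun {g h} ⟨hg, hgv⟩ ⟨hh, hhv⟩ =>
    ⟨mul_mem hg hh, fun x hx => by rw [sv_mul, hhv x hx, hgv x hx]⟩
  inv_mem' := fun {g} ⟨hg, hgv⟩ => ⟨inv_mem hg, fun x hx => by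
    calc sv g⁻¹ x = sv g⁻¹ (sv g x) := by rw [hgv x hx]
      _ = x := sv_inv_sv g x⟩

variable {H : Subgroup ↥(SU 3 F q)} {v : Fin 3 → F}

theorem fixV_le_lineStab : fixV H v ≤ lineStab H v :=
  fun _ hg => ⟨hg.1, 1, one_ne_zero, by rw [hg.2, one_smul]⟩

/-- The eigenvalue on a common eigenvector. -/
noncomputable def eigHom (H : Subgroup ↥(SU 3 F q)) (v : Fin 3 → F) (hv : v ≠ 0) :
    ↥(lineStab H v) →* Fˣ where
  toFun g := Units.mk0 g.2.2.choose g.2.2.choose_spec.1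
  map_one' := by
    refine Units.ext (smul_left_injective F hv ?_)
    show (1 : ↥(lineStab H v)).2.2.choose • v = (1 : F) • v
    rw [← (1 : ↥(lineStab H v)).2.2.choose_spec.2, one_smul]
    exact sv_one v
  map_mul' g h := by
    refine Units.ext (smul_left_injective F hv ?_)
    show (g * h).2.2.choose • v = (g.2.2.choose * h.2.2.choose) • v
    rw [← (g * h).2.2.choose_spec.2]
    show sv ((g : ↥(SU 3 F q)) * (h : ↥(SU 3 F q))) v = _
    have hgv := g.2.2.choose_spec.2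
    have hhv := h.2.2.choose_spec.2
    generalize g.2.2.choose = a at hgv
    generalize h.2.2.choose = b at hhv
    rw [sv_mul, hhv, sv_smul, hgv, smul_smul, mul_comm]

theorem sv_eq_eigHom (hv : v ≠ 0) (g : ↥(lineStab H v)) :
    sv (g : ↥(SU 3 F q)) v = (eigHom H v hv g : F) • v := g.2.2.choose_spec.2

theorem eigHom_eq_iff (hv : v ≠ 0) (g : ↥(lineStab H v)) (a : F) :
    (eigHom H v hv g : F) = a ↔ sv (g : ↥(SU 3 F q)) v = a • v := by
  rw [sv_eq_eigHom hv g]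
  exact ⟨fun h => by rw [h], fun h => smul_left_injective F hv h⟩

theorem ker_eigHom (hv : v ≠ 0) :
    (eigHom H v hv).ker = (fixV H v).subgroupOf (lineStab H v) := by
  ext g
  rw [MonoidHom.mem_ker, Units.ext_iff, Units.val_one, eigHom_eq_iff, one_smul,
    Subgroup.mem_subgroupOf]
  exact ⟨fun h => ⟨g.2.1, h⟩, fun h => h.2⟩

/-- The number of eigenvalues. -/
noncomputable def eigCard (H : Subgroup ↥(SU 3 F q)) (v : Fin 3 → F) (hv : v ≠ 0) : ℕ :=
  Nat.card (eigHom H v hv).range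

theorem card_lineStab (hv : v ≠ 0) :
    Nat.card (lineStab H v) = Nat.card (fixV H v) * eigCard H v hv := by
  rw [← (eigHom H v hv).ker.card_mul_index, Subgroup.index_ker, ker_eigHom,
    Nat.card_congr (Subgroup.subgroupOfEquivOfLe fixV_le_lineStab).toEquiv]
  rfl

variable [Fintype F]

theorem eigCard_dvd (hF : Fintype.card F = q ^ 2) (hv : v ≠ 0) : eigCard H v hv ∣ q ^ 2 - 1 := by
  have h := Subgroup.card_subgroup_dvd_card (eigHom H v hv).range
  rw [Nat.card_units, Nat.card_eq_fintype_card (α := F), hF] at h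
  exact h

theorem eigCard_dvd_of (hv : v ≠ 0) {m : ℕ}
    (h : ∀ g : ↥(lineStab H v), (eigHom H v hv g : F) ^ m = 1) : eigCard H v hv ∣ m := by
  obtain ⟨⟨a, g, rfl⟩, ha⟩ := IsCyclic.exists_generator (α := ↥(eigHom H v hv).range)
  rw [eigCard, ← orderOf_eq_card_of_forall_mem_zpowers ha, ← Subgroup.orderOf_coe]
  exact orderOf_dvd_of_pow_eq_one (Units.ext (by rw [Units.val_pow_eq_pow_val]; exact h g))

theorem exists_eig_eq (hv : v ≠ 0) {m : ℕ} (hm : eigCard H v hv = m) (hmF : m = Nat.card Fˣ)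
    (a : Fˣ) : ∃ g : ↥(lineStab H v), eigHom H v hv g = a := by
  have h : (eigHom H v hv).range = ⊤ := Subgroup.eq_top_of_card_eq _ (hm.trans hmF)
  exact MonoidHom.range_eq_top.1 h a

theorem mem_lineStab_iff (hv0 : v ≠ 0) (hvv : hermForm 3 F q v v = 0) {g : ↥(SU 3 F q)} :
    g ∈ lineStab H v ↔ g ∈ H ∧ g • pt v hv0 hvv = pt v hv0 hvv := by
  rw [smul_pt_eq_iff]
  constructor
  · rintro ⟨hg, a, -, ha⟩
    exact ⟨hg, a, ha⟩
  · rintro ⟨hg, a, ha⟩
    refine ⟨hg, a, ?_, ha⟩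
    rintro rfl
    exact sv_ne_zero g hv0 (by rw [ha, zero_smul])

theorem card_lineStab_eq_stabilizer (hv0 : v ≠ 0) (hvv : hermForm 3 F q v v = 0) :
    Nat.card (lineStab H v) = Nat.card (stabilizer ↥H (pt v hv0 hvv)) := by
  rw [← Subgroup.card_map_of_injective (f := H.subtype) H.subtype_injective]
  refine Nat.card_congr (Equiv.setCongr (Set.ext fun g => ?_))
  rw [SetLike.mem_coe, SetLike.mem_coe, mem_lineStab_iff hv0 hvv, Subgroup.mem_map]
  constructor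
  · rintro ⟨hg, h⟩
    exact ⟨⟨g, hg⟩, h, rfl⟩
  · rintro ⟨x, hx, rfl⟩
    exact ⟨x.2, hx⟩

theorem isPGroup_fixV (hF : Fintype.card F = q ^ 2) (p : ℕ) [CharP F p] (hv0 : v ≠ 0)
    (hvv : hermForm 3 F q v v = 0) : IsPGroup p (fixV H v) := by
  obtain ⟨w, f, fr⟩ := exists_frame hF hv0 hvv
  exact fun g => ⟨2, Subtype.ext (fr.pow_sq_eq_one hF p g.2.2)⟩

theorem mem_fixV_of_pow (p : ℕ) [Fact p.Prime] [CharP F p] (hv0 : v ≠ 0) {g : ↥(SU 3 F q)} {j : ℕ}
    (hg : g ∈ lineStab H v) (hp : g ^ p ^ j = 1) : g ∈ fixV H v := by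
  obtain ⟨hgH, a, -, ha⟩ := hg
  exact ⟨hgH, sv_eq_self_of_pow p hp hv0 ha⟩

theorem card_orbit_mul (L : Pt q F) :
    Nat.card (orbit ↥H L) * Nat.card (stabilizer ↥H L) = Nat.card H := by
  rw [← (stabilizer ↥H L).card_mul_index, MulAction.index_stabilizer, Nat.card_coe_set_eq, mul_comm]

theorem card_orbit_le (hF : Fintype.card F = q ^ 2) (L : Pt q F) :
    Nat.card (orbit ↥H L) ≤ q ^ 3 + 1 := by
  rw [← card_Pt hF]
  exact Nat.card_le_card_of_injective _ Subtype.val_injective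

/-- The standing hypothesis: large order. -/
def Large (H : Subgroup ↥(SU 3 F q)) : Prop := (q ^ 3 + 1) * (q ^ 2 - 1) ≤ Nat.card H

theorem Large.le_stab (hL : Large H) (hF : Fintype.card F = q ^ 2) (L : Pt q F) :
    q ^ 2 - 1 ≤ Nat.card (stabilizer ↥H L) := by
  have h := card_orbit_mul (H := H) L
  have hO := Nat.mul_le_mul_right (Nat.card (stabilizer ↥H L)) (card_orbit_le (H := H) hF L)
  exact Nat.le_of_mul_le_mul_left ((hL.trans h.ge).trans hO) (by positivity)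

theorem exists_smul_eq_of_card_orbit (hF : Fintype.card F = q ^ 2) {L : Pt q F}
    (h : Nat.card (orbit ↥H L) = q ^ 3 + 1) (M : Pt q F) : ∃ g ∈ H, g • L = M := by
  classical
  haveI := Fintype.ofFinite (Pt q F)
  have hu : orbit ↥H L = Set.univ := by
    refine Set.eq_of_subset_of_ncard_le (Set.subset_univ _) ?_
    rw [Set.ncard_univ, card_Pt hF, ← Nat.card_coe_set_eq, h]
  obtain ⟨g, hg⟩ := hu.ge (Set.mem_univ M)
  exact ⟨g, g.2, hg⟩

/-- A subgroup of large order is transitive. -/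
theorem Large.exists_smul_eq (hL : Large H) (hF : Fintype.card F = q ^ 2) (p : ℕ) [Fact p.Prime]
    [CharP F p] (L M : Pt q F) : ∃ g ∈ H, g • L = M := by
  have hq := two_le_q hF
  have hpos : 0 < q ^ 2 - 1 := Nat.sub_pos_of_lt (Nat.one_lt_pow (by norm_num) (by omega))
  -- a stabiliser without elements fixing the vector forces transitivity
  have key : ∀ N : Pt q F, ∀ (v : Fin 3 → F) (h0 : v ≠ 0) (hvv : hermForm 3 F q v v = 0),
      N = pt v h0 hvv → fixV H v = ⊥ → Nat.card (orbit ↥H N) = q ^ 3 + 1 := by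
    rintro N v h0 hvv rfl hbot
    have h1 := card_lineStab (H := H) h0
    rw [hbot, Subgroup.card_bot, one_mul, card_lineStab_eq_stabilizer h0 hvv] at h1
    have h2 : Nat.card (stabilizer ↥H (pt v h0 hvv)) ≤ q ^ 2 - 1 :=
      h1 ▸ Nat.le_of_dvd hpos (eigCard_dvd hF h0)
    have h3 := card_orbit_mul (H := H) (pt v h0 hvv)
    have h4 : (q ^ 3 + 1) * (q ^ 2 - 1) ≤ Nat.card (orbit ↥H (pt v h0 hvv)) * (q ^ 2 - 1) :=
      (hL.trans h3.ge).trans (Nat.mul_le_mul_left _ h2)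
    exact le_antisymm (card_orbit_le hF _) (Nat.le_of_mul_le_mul_right h4 hpos)
  by_cases hex : ∃ (v : Fin 3 → F) (_h0 : v ≠ 0), hermForm 3 F q v v = 0 ∧ fixV H v = ⊥
  · obtain ⟨v, h0, hvv, hbot⟩ := hex
    have hO := key _ v h0 hvv rfl hbot
    obtain ⟨g, hg, hgL⟩ := exists_smul_eq_of_card_orbit hF hO L
    obtain ⟨g', hg', hgM⟩ := exists_smul_eq_of_card_orbit hF hO M
    exact ⟨g' * g⁻¹, mul_mem hg' (inv_mem hg), by rw [mul_smul, ← hgL, inv_smul_smul, hgM]⟩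
  push Not at hex
  -- all stabilisers contain Sylow subgroups
  have hsyl : ∀ N : Pt q F, ∃ S : Sylow p ↥H, (∀ s : ↥H, s ∈ S → s • N = N) ∧
      ∃ u : ↥H, u ∈ S ∧ u ≠ 1 := by
    intro N
    obtain ⟨v, h0, hvv, rfl⟩ := exists_eq_pt N
    have hne := hex v h0 hvv
    have hP : IsPGroup p ((fixV H v).subgroupOf H) :=
      (isPGroup_fixV hF p h0 hvv).of_equiv
        (Subgroup.subgroupOfEquivOfLe (show fixV H v ≤ H from fun _ h => h.1)).symm
    obtain ⟨S, hS⟩ := hP.exists_le_sylow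
    obtain ⟨u, hu, hu1⟩ := (Subgroup.bot_or_exists_ne_one _).resolve_left hne
    have huS : (⟨u, hu.1⟩ : ↥H) ∈ S := hS (show u ∈ fixV H v from hu)
    have hu1' : (⟨u, hu.1⟩ : ↥H) ≠ 1 := fun h => hu1 (congrArg Subtype.val h)
    refine ⟨S, ?_, _, huS, hu1'⟩
    haveI : Nontrivial (S : Subgroup ↥H) :=
      (Subgroup.nontrivial_iff_ne_bot _).mpr fun h => hu1' (Subgroup.mem_bot.mp (h ▸ huS))
    haveI := S.isPGroup'.center_nontrivial
    obtain ⟨⟨z, hz⟩, hz1⟩ := exists_ne (1 : Subgroup.center (S : Subgroup ↥H))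
    have hz1' : ((z : ↥H) : ↥(SU 3 F q)) ≠ 1 := fun h => hz1 (Subtype.ext (Subtype.ext (Subtype.ext h)))
    obtain ⟨j, hj⟩ := S.isPGroup' z
    have hzj : ((z : ↥H) : ↥(SU 3 F q)) ^ p ^ j = 1 := by
      rw [← Subgroup.coe_pow, ← Subgroup.coe_pow, hj]; rfl
    obtain ⟨i, hi⟩ := S.isPGroup' ⟨_, huS⟩
    have hui : u ^ p ^ i = 1 := congrArg (fun x : ↥(S : Subgroup ↥H) => ((x : ↥H) : ↥(SU 3 F q))) hi
    have hufix : u • pt v h0 hvv = pt v h0 hvv :=
      (smul_pt_eq_iff u h0 hvv).2 ⟨1, by rw [one_smul]; exact hu.2⟩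
    have hzc : ((z : ↥H) : ↥(SU 3 F q)) * u = u * ((z : ↥H) : ↥(SU 3 F q)) :=
      (congrArg (fun x : ↥(S : Subgroup ↥H) => ((x : ↥H) : ↥(SU 3 F q)))
        (Subgroup.mem_center_iff.mp hz ⟨_, huS⟩)).symm
    have hzfix : ((z : ↥H) : ↥(SU 3 F q)) • pt v h0 hvv = pt v h0 hvv :=
      fixed_unique hF p hui hu1 (by rw [← mul_smul, ← hzc, mul_smul, hufix]) hufix
    intro s hs
    have hsc : (s : ↥(SU 3 F q)) * ((z : ↥H) : ↥(SU 3 F q)) = ((z : ↥H) : ↥(SU 3 F q)) * s :=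
      congrArg (fun x : ↥(S : Subgroup ↥H) => ((x : ↥H) : ↥(SU 3 F q)))
        (Subgroup.mem_center_iff.mp hz ⟨s, hs⟩)
    show (s : ↥(SU 3 F q)) • pt v h0 hvv = pt v h0 hvv
    exact fixed_unique hF p hzj hz1' (by rw [← mul_smul, ← hsc, mul_smul, hzfix]) hzfix
  obtain ⟨S, hSfix, -⟩ := hsyl L
  obtain ⟨T, hTfix, u, huT, hu1⟩ := hsyl M
  obtain ⟨h, rfl⟩ := MulAction.exists_smul_eq ↥H S T
  refine ⟨h, h.2, ?_⟩
  obtain ⟨j, hj⟩ := (h • S).isPGroup' ⟨u, huT⟩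
  have huj : (u : ↥(SU 3 F q)) ^ p ^ j = 1 :=
    congrArg (fun x : ↥((h • S : Sylow p ↥H) : Subgroup ↥H) => ((x : ↥H) : ↥(SU 3 F q))) hj
  have h1 : h⁻¹ * u * h ∈ S := by
    have h2 : u ∈ MulAut.conj h • (S : Subgroup ↥H) := huT
    rw [Subgroup.mem_pointwise_smul_iff_inv_smul_mem] at h2
    show h⁻¹ * u * h ∈ (S : Subgroup ↥H)
    simpa [mul_assoc] using h2
  refine fixed_unique hF p huj (fun h' => hu1 (Subtype.ext h')) ?_ (hTfix u huT)
  have h3 := hSfix _ h1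
  calc (u : ↥(SU 3 F q)) • (h : ↥(SU 3 F q)) • L
      = (h : ↥(SU 3 F q)) • ((h⁻¹ * u * h : ↥H) • L) := by
        show _ = (h : ↥(SU 3 F q)) • (((h⁻¹ * u * h : ↥H) : ↥(SU 3 F q)) • L)
        rw [← mul_smul, ← mul_smul]
        congr 1
        simp [mul_assoc]
    _ = _ := by rw [h3]

theorem Large.card_eq (hL : Large H) (hF : Fintype.card F = q ^ 2) (p : ℕ) [Fact p.Prime] [CharP F p]
    (hv0 : v ≠ 0) (hvv : hermForm 3 F q v v = 0) :
    Nat.card H = (q ^ 3 + 1) * (Nat.card (fixV H v) * eigCard H v hv0) := by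
  rw [← card_orbit_mul (pt v hv0 hvv), ← card_lineStab hv0, card_lineStab_eq_stabilizer hv0 hvv]
  congr 1
  refine le_antisymm (card_orbit_le hF _) ?_
  rw [← card_Pt hF]
  refine Nat.card_le_card_of_injective (fun M => ⟨M, ?_⟩) fun a b h => congrArg Subtype.val h
  obtain ⟨g, hg, h⟩ := hL.exists_smul_eq hF p (pt v hv0 hvv) M
  exact ⟨⟨g, hg⟩, h⟩

theorem Large.le_fix_mul (hL : Large H) (hF : Fintype.card F = q ^ 2) (hv0 : v ≠ 0)
    (hvv : hermForm 3 F q v v = 0) : q ^ 2 - 1 ≤ Nat.card (fixV H v) * eigCard H v hv0 := by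
  rw [← card_lineStab hv0, card_lineStab_eq_stabilizer hv0 hvv]
  exact hL.le_stab hF _

theorem conj_mem_fixV {g h : ↥(SU 3 F q)} (hh : h ∈ H) {y : Fin 3 → F} {a : F}
    (hy : sv h v = a • y) (ha : a ≠ 0) (hg : g ∈ fixV H v) : h * g * h⁻¹ ∈ fixV H y := by
  refine ⟨mul_mem (mul_mem hh hg.1) (inv_mem hh), ?_⟩
  have h1 : sv (h * g * h⁻¹) (sv h v) = sv h v := by
    rw [← sv_mul, inv_mul_cancel_right, sv_mul, hg.2]
  rw [hy, sv_smul] at h1
  exact smul_right_injective _ ha h1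

theorem conj_mem_rootV (hF : Fintype.card F = q ^ 2) {g h : ↥(SU 3 F q)} (hh : h ∈ H)
    {y : Fin 3 → F} {a : F} (hy : sv h v = a • y) (hg : g ∈ rootV H v) :
    h * g * h⁻¹ ∈ rootV H y := by
  refine ⟨mul_mem (mul_mem hh hg.1) (inv_mem hh), fun x hx => ?_⟩
  have hx' : hermForm 3 F q (sv h⁻¹ x) v = 0 := by
    rw [← sv_herm h, sv_sv_inv, hy, herm_smul_right, hx, mul_zero]
  rw [sv_mul, sv_mul, hg.2 _ hx', sv_sv_inv]

theorem Large.card_conj_eq (hL : Large H) (hF : Fintype.card F = q ^ 2) (p : ℕ) [Fact p.Prime]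
    [CharP F p] (hv0 : v ≠ 0) (hvv : hermForm 3 F q v v = 0) {y : Fin 3 → F} (hy0 : y ≠ 0)
    (hyy : hermForm 3 F q y y = 0) :
    Nat.card (fixV H v) = Nat.card (fixV H y) ∧ Nat.card (rootV H v) = Nat.card (rootV H y) ∧
      eigCard H v hv0 = eigCard H y hy0 := by
  have half : ∀ (x z : Fin 3 → F) (hx0 : x ≠ 0) (hxx : hermForm 3 F q x x = 0) (hz0 : z ≠ 0)
      (hzz : hermForm 3 F q z z = 0), Nat.card (fixV H x) ≤ Nat.card (fixV H z) ∧
      Nat.card (rootV H x) ≤ Nat.card (rootV H z) := by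
    intro x z hx0 hxx hz0 hzz
    obtain ⟨g, hg, h⟩ := hL.exists_smul_eq hF p (pt x hx0 hxx) (pt z hz0 hzz)
    rw [smul_pt, pt_eq_pt_iff] at h
    obtain ⟨a, ha⟩ := h
    have ha0 : a ≠ 0 := by rintro rfl; exact sv_ne_zero g hx0 (by rw [ha, zero_smul])
    constructor
    · refine Nat.card_le_card_of_injective
        (fun u : ↥(fixV H x) => (⟨_, conj_mem_fixV hg ha ha0 u.2⟩ : ↥(fixV H z))) fun u u' h => ?_
      exact Subtype.ext (mul_left_cancel (mul_right_cancel (congrArg Subtype.val h)))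
    · refine Nat.card_le_card_of_injective
        (fun u : ↥(rootV H x) => (⟨_, conj_mem_rootV hF hg ha u.2⟩ : ↥(rootV H z))) fun u u' h => ?_
      exact Subtype.ext (mul_left_cancel (mul_right_cancel (congrArg Subtype.val h)))
  have h1 := half v y hv0 hvv hy0 hyy
  have h2 := half y v hy0 hyy hv0 hvv
  refine ⟨le_antisymm h1.1 h2.1, le_antisymm h1.2 h2.2, ?_⟩
  have e := (hL.card_eq hF p hv0 hvv).symm.trans (hL.card_eq hF p hy0 hyy)
  rw [le_antisymm h1.1 h2.1] at e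
  exact Nat.eq_of_mul_eq_mul_left Nat.card_pos (Nat.eq_of_mul_eq_mul_left (by positivity) e)

variable {w f : Fin 3 → F}

theorem Frame.mem_rootV_iff (fr : Frame q v w f) (hF : Fintype.card F = q ^ 2) {g : ↥(SU 3 F q)} :
    g ∈ rootV H v ↔ g ∈ fixV H v ∧ bCoord q w f g = 0 := by
  constructor
  · rintro ⟨hg, hfix⟩
    have hv := hfix v fr.vv
    refine ⟨⟨hg, hv⟩, ?_⟩
    have hw := hfix w (fr.wv hF)
    rw [bCoord, ← hw, sv_herm, fr.fw hF]
  · rintro ⟨⟨hg, hv⟩, hb⟩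
    refine ⟨hg, fun x hx => ?_⟩
    obtain ⟨gw, -, -⟩ := fr.unip hF hv
    rw [hb, zero_pow_q hF, zero_smul, sub_zero] at gw
    have e := fr.expand hF x
    rw [hx, zero_smul, add_zero] at e
    rw [e, sv_add, sv_smul, sv_smul, hv, gw]

theorem rootV_le_fixV (hvv : hermForm 3 F q v v = 0) : rootV H v ≤ fixV H v :=
  fun _ hg => ⟨hg.1, hg.2 v hvv⟩

theorem Frame.rootV_coord_trace (fr : Frame q v w f) (hF : Fintype.card F = q ^ 2) {g : ↥(SU 3 F q)}
    (hg : g ∈ rootV H v) : cCoord q f g + cCoord q f g ^ q = 0 := by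
  obtain ⟨hv, hb⟩ := (fr.mem_rootV_iff hF).1 hg
  obtain ⟨-, -, h⟩ := fr.unip hF hv.2
  rwa [hb, zero_mul, add_zero] at h

theorem Frame.rootV_coord_injOn (fr : Frame q v w f) (hF : Fintype.card F = q ^ 2)
    {g g' : ↥(SU 3 F q)} (hg : g ∈ rootV H v) (hg' : g' ∈ rootV H v)
    (h : cCoord q f g = cCoord q f g') : g = g' := by
  obtain ⟨hv, hb⟩ := (fr.mem_rootV_iff hF).1 hg
  obtain ⟨hv', hb'⟩ := (fr.mem_rootV_iff hF).1 hg'
  obtain ⟨gw, gf, -⟩ := fr.unip hF hv.2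
  obtain ⟨gw', gf', -⟩ := fr.unip hF hv'.2
  rw [hb] at gw gf
  rw [hb', ← h] at gf'
  rw [hb'] at gw'
  refine sv_ext fun x => ?_
  rw [fr.expand hF x, sv_add, sv_add, sv_smul, sv_smul, sv_smul, sv_add, sv_add, sv_smul, sv_smul,
    sv_smul, hv.2, hv'.2, gw, gw', gf, gf']

theorem card_rootV_le (hF : Fintype.card F = q ^ 2) (hv0 : v ≠ 0) (hvv : hermForm 3 F q v v = 0) :
    Nat.card (rootV H v) ≤ q := by
  obtain ⟨w, f, fr⟩ := exists_frame hF hv0 hvv
  refine le_trans (Nat.card_le_card_of_injective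
    (fun g : ↥(rootV H v) => (⟨_, fr.rootV_coord_trace hF g.2⟩ : {c : F // c + c ^ q = 0}))
    fun g g' h => Subtype.ext (fr.rootV_coord_injOn hF g.2 g'.2 (congrArg Subtype.val h))) ?_
  exact (card_trace_zero hF).le

/-- A transitive subgroup containing a full root group is everything. -/
theorem Large.eq_top_of_full (hL : Large H) (hF : Fintype.card F = q ^ 2) (hq : 3 ≤ q) (p : ℕ)
    [Fact p.Prime] [CharP F p] (hv0 : v ≠ 0) (hvv : hermForm 3 F q v v = 0)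
    (hz : Nat.card (rootV H v) = q) : H = ⊤ := by
  rw [← top_le_iff, ← transvGroup_eq_top hF (n := 3) (by omega), transvGroup, Subgroup.closure_le]
  rintro A ⟨y, c, hy, hA⟩
  have hct : ∀ (e : F), e + e ^ q = 0 → ∀ (y : Fin 3 → F) (hy : hermForm 3 F q y y = 0) (hy0 : y ≠ 0)
      (he : e + e ^ q = 0), transvSU hF y e hy he ∈ H := by
    intro e _ y hy hy0 he
    obtain ⟨w, f, fr⟩ := exists_frame hF hy0 hy
    let φ : ↥(rootV H y) → {c : F // c + c ^ q = 0} := fun g => ⟨_, fr.rootV_coord_trace hF g.2⟩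
    have hφ : Function.Bijective φ := by
      refine (Nat.bijective_iff_injective_and_card φ).2 ⟨fun g g' h =>
        Subtype.ext (fr.rootV_coord_injOn hF g.2 g'.2 (congrArg Subtype.val h)), ?_⟩
      rw [← (hL.card_conj_eq hF p hv0 hvv hy0 hy).2.1, hz, card_trace_zero hF]
    obtain ⟨g, hg⟩ := hφ.2 ⟨e, he⟩
    have hgc : cCoord q f (g : ↥(SU 3 F q)) = e := congrArg Subtype.val hg
    have key : transvSU hF y e hy he = g := by
      have hT : transvSU hF y e hy he ∈ rootV ⊤ y :=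
        ⟨Subgroup.mem_top _, fun x hx => by rw [sv_transvSU, hx, mul_zero, zero_smul, add_zero]⟩
      refine fr.rootV_coord_injOn hF (H := ⊤) hT ⟨Subgroup.mem_top _, g.2.2⟩ ?_
      rw [hgc, cCoord, sv_transvSU, fr.fv hF, mul_one, herm_add_left, herm_smul_left, fr.ff, fr.vf]
      ring
    exact key ▸ g.2.1
  obtain ⟨c', hc', rfl, -⟩ := eq_transvSU_of_matrix_eq hF hy hA
  by_cases hy0 : y = 0
  · rw [transvSU_eq_one hF hy hc' (Or.inr hy0)]
    exact one_mem H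
  · exact hct c' hc' y hy hy0 hc'

end CfsgLib.MinIndexPSU3
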