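import Mathlib
import Cfsg.Agent.MinIndexPSU3.Point
import Cfsg.Agent.Dickson.Line
import Cfsg.Agent.Dickson.FewPoints

/-!
The stabiliser of a norm one line acting on the isotropic points orthogonal to it, seen as a
subgroup of `PGL₂` over an algebraically closed field.
-/

set_option autoImplicit false

namespace CfsgLib.MinIndexPSU3

open Cfsg CfsgLib.Unitary MulAction
open CfsgLib.Dickson
open scoped Matrix MatrixGroups

variable {F : Type*} [Field F] {q : ℕ}

/-- The elements of `H` fixing the line of `w`. -/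
abbrev midStab (H : Subgroup ↥(SU 3 F q)) (w : Fin 3 → F) : Subgroup ↥(SU 3 F q) := lineStab H w

variable [Fintype F] {H : Subgroup ↥(SU 3 F q)} {v w f : Fin 3 → F}

theorem Frame.fixV_midStab (fr : Frame q v w f) (hF : Fintype.card F = q ^ 2) :
    fixV (midStab H w) v = rootV H v := by
  ext g
  constructor
  · rintro ⟨⟨hg, m, -, hm⟩, hv⟩
    refine (fr.mem_rootV_iff hF).2 ⟨⟨hg, hv⟩, ?_⟩
    obtain ⟨gw, -, -⟩ := fr.unip hF hv
    rw [hm] at gw
    obtain ⟨h1, -, -⟩ := fr.coord hF (-(bCoord q w f g ^ q)) (1 - m) 0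
    rw [show (-(bCoord q w f g ^ q)) • v + (1 - m) • w + (0 : F) • f = 0 by
      rw [zero_smul, add_zero, neg_smul, sub_smul, one_smul, gw]; abel, herm_zero_left] at h1
    exact eq_zero_of_pow_eq_zero (neg_eq_zero.1 h1.symm)
  · intro hg
    exact ⟨⟨hg.1, 1, one_ne_zero, by rw [one_smul]; exact hg.2 w (fr.wv hF)⟩, hg.2 v fr.vv⟩

/-- The vectors of the chord. -/
def chordVec (v f : Fin 3 → F) (o : Option {c : F // c + c ^ q = 0}) : Fin 3 → F :=
  match o with
  | none => v
  | some c => f + (c : F) • v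

theorem Frame.chordVec_spec (fr : Frame q v w f) (hF : Fintype.card F = q ^ 2)
    (o : Option {c : F // c + c ^ q = 0}) :
    chordVec v f o ≠ 0 ∧ hermForm 3 F q (chordVec v f o) (chordVec v f o) = 0 ∧
      hermForm 3 F q w (chordVec v f o) = 0 := by
  rcases o with _ | ⟨c, hc⟩
  · exact ⟨fr.v_ne, fr.vv, fr.wv hF⟩
  · have e : f + c • v = f + (0 : F) • w + c • v := by rw [zero_smul, add_zero]
    show f + c • v ≠ 0 ∧ _ ∧ _
    refine ⟨e ▸ fr.big_ne hF 0 c, ?_, ?_⟩
    · show hermForm 3 F q (f + c • v) (f + c • v) = 0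
      rw [e, fr.herm_big hF, zero_mul, add_zero, hc]
    · show hermForm 3 F q w (f + c • v) = 0
      rw [herm_add_right hF, herm_smul_right, fr.wf, fr.wv hF, mul_zero, add_zero]

/-- The matrix of an element on the plane of `v` and `f`. -/
def planeMat (q : ℕ) (v f : Fin 3 → F) (g : ↥(SU 3 F q)) : Matrix (Fin 2) (Fin 2) F :=
  !![hermForm 3 F q (sv g v) f, hermForm 3 F q (sv g f) f;
     hermForm 3 F q (sv g v) v, hermForm 3 F q (sv g f) v]

theorem Frame.mid_apply (fr : Frame q v w f) (hF : Fintype.card F = q ^ 2) {g : ↥(SU 3 F q)}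
    (hg : g ∈ midStab H w) :
    sv g v = planeMat q v f g 0 0 • v + planeMat q v f g 1 0 • f ∧
      sv g f = planeMat q v f g 0 1 • v + planeMat q v f g 1 1 • f := by
  obtain ⟨-, m, hm0, hm⟩ := hg
  have key : ∀ x, hermForm 3 F q x w = 0 →
      sv g x = hermForm 3 F q (sv g x) f • v + hermForm 3 F q (sv g x) v • f := by
    intro x hx
    have h1 : hermForm 3 F q (sv g x) w = 0 := by
      have := sv_herm g x w
      rw [hm, herm_smul_right, hx] at this
      exact (mul_eq_zero.1 this).resolve_left (pow_ne_zero q hm0)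
    have e := fr.expand hF (sv g x)
    rw [h1, zero_smul, add_zero] at e
    exact e
  exact ⟨key v fr.vw, key f (fr.fw hF)⟩

/-- The plane representation. -/
noncomputable def planeHom (fr : Frame q v w f) (hF : Fintype.card F = q ^ 2)
    (H : Subgroup ↥(SU 3 F q)) : ↥(midStab H w) →* GL (Fin 2) F :=
  MonoidHom.toHomUnits
    { toFun := fun g => planeMat q v f (g : ↥(SU 3 F q))
      map_one' := by
        show planeMat q v f (1 : ↥(SU 3 F q)) = 1
        ext i j
        fin_cases i <;> fin_cases j <;> simp [planeMat, fr.vv, fr.vf, fr.ff, fr.fv hF]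
      map_mul' := fun g h => by
        show planeMat q v f ((g : ↥(SU 3 F q)) * (h : ↥(SU 3 F q))) = _
        obtain ⟨hv, hf⟩ := fr.mid_apply hF h.2
        generalize planeMat q v f (h : ↥(SU 3 F q)) = N at hv hf ⊢
        ext i j
        fin_cases i <;> fin_cases j <;>
          simp [planeMat, Matrix.mul_apply, sv_mul, hv, hf, sv_add, sv_smul, herm_add_left,
            herm_smul_left] <;> ring }

theorem planeHom_apply (fr : Frame q v w f) (hF : Fintype.card F = q ^ 2) (g : ↥(midStab H w))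
    (i j : Fin 2) : (planeHom fr hF H g : Matrix (Fin 2) (Fin 2) F) i j =
      planeMat q v f (g : ↥(SU 3 F q)) i j := rfl

/-- The projective representation over the algebraic closure. -/
noncomputable def chordHom (fr : Frame q v w f) (hF : Fintype.card F = q ^ 2)
    (H : Subgroup ↥(SU 3 F q)) : ↥(midStab H w) →* PGL(2, AlgebraicClosure F) :=
  Matrix.ProjGenLinGroup.mk.comp ((Matrix.GeneralLinearGroup.map
    (algebraMap F (AlgebraicClosure F))).comp (planeHom fr hF H))

theorem ker_chordHom_spec (fr : Frame q v w f) (hF : Fintype.card F = q ^ 2) {g : ↥(midStab H w)}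
    (hg : g ∈ (chordHom fr hF H).ker) :
    ∃ a : F, a ^ (q + 1) = 1 ∧ sv (g : ↥(SU 3 F q)) v = a • v ∧ sv (g : ↥(SU 3 F q)) f = a • f := by
  classical
  rw [MonoidHom.mem_ker] at hg
  obtain ⟨h1, h2, h3⟩ := mk_eq_one_iff.1 hg
  set φ := algebraMap F (AlgebraicClosure F)
  have e1 : planeMat q v f (g : ↥(SU 3 F q)) 0 1 = 0 := φ.injective (by rw [map_zero]; exact h1)
  have e2 : planeMat q v f (g : ↥(SU 3 F q)) 1 0 = 0 := φ.injective (by rw [map_zero]; exact h2)
  have e3 : planeMat q v f (g : ↥(SU 3 F q)) 0 0 = planeMat q v f (g : ↥(SU 3 F q)) 1 1 := φ.injective h3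
  obtain ⟨hv, hf⟩ := fr.mid_apply hF g.2
  rw [e2, zero_smul, add_zero] at hv
  rw [e1, zero_smul, zero_add, ← e3] at hf
  refine ⟨_, ?_, hv, hf⟩
  have := sv_herm (g : ↥(SU 3 F q)) v f
  rw [hv, hf, herm_smul_left, herm_smul_right, fr.vf, mul_one, ← pow_succ'] at this
  exact this

/-- The eigenvalue on `v` separates the elements acting trivially on the chord. -/
theorem ker_chordHom_injective (fr : Frame q v w f) (hF : Fintype.card F = q ^ 2)
    {g g' : ↥(midStab H w)} (hg : g ∈ (chordHom fr hF H).ker) (hg' : g' ∈ (chordHom fr hF H).ker)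
    {a : F} (ha : sv (g : ↥(SU 3 F q)) v = a • v) (ha' : sv (g' : ↥(SU 3 F q)) v = a • v) : g = g' := by
  have key : ∀ g : ↥(midStab H w), g ∈ (chordHom fr hF H).ker →
      sv (g : ↥(SU 3 F q)) v = v → g = 1 := by
    intro g hg hv
    obtain ⟨b, -, hb, hbf⟩ := ker_chordHom_spec fr hF hg
    rw [hv] at hb
    have : b = 1 := smul_left_injective F fr.v_ne (show b • v = (1 : F) • v by rw [one_smul, ← hb])
    rw [this, one_smul] at hbf
    exact Subtype.ext (fr.unip_ext hF hv (by rw [bCoord, hbf, fr.fw hF]) (by rw [cCoord, hbf, fr.ff]))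
  refine inv_mul_eq_one.1 (key (g⁻¹ * g') (mul_mem (inv_mem hg) hg') ?_)
  show sv ((g : ↥(SU 3 F q))⁻¹ * (g' : ↥(SU 3 F q))) v = v
  rw [sv_mul, ha', ← ha, sv_inv_sv]

/-- The points of the projective line of the chord. -/
noncomputable def chordPt (o : Option {c : F // c + c ^ q = 0}) : OnePoint (AlgebraicClosure F) :=
  match o with
  | none => OnePoint.infty
  | some c => ((algebraMap F (AlgebraicClosure F) (c : F) : AlgebraicClosure F) :
      OnePoint (AlgebraicClosure F))

theorem chordPt_injective : Function.Injective (chordPt (F := F) (q := q)) := by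
  rintro (_ | a) (_ | b) h
  · rfl
  · exact absurd h (OnePoint.infty_ne_coe _)
  · exact absurd h.symm (OnePoint.infty_ne_coe _)
  · exact congrArg some (Subtype.ext ((algebraMap F _).injective (OnePoint.coe_injective h)))

theorem card_chord (hF : Fintype.card F = q ^ 2) :
    Nat.card (Option {c : F // c + c ^ q = 0}) = q + 1 := by
  rw [Finite.card_option, card_trace_zero hF]

variable [DecidableEq (AlgebraicClosure F)]

theorem chordHom_fix (fr : Frame q v w f) (hF : Fintype.card F = q ^ 2) (g : ↥(midStab H w))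
    (o : Option {c : F // c + c ^ q = 0}) {a : F}
    (ha : sv (g : ↥(SU 3 F q)) (chordVec v f o) = a • chordVec v f o) :
    chordHom fr hF H g • chordPt o = chordPt o := by
  set N := planeHom fr hF H g
  show Matrix.ProjGenLinGroup.mk (Matrix.GeneralLinearGroup.map (algebraMap F _) N) • chordPt o = _
  rw [mk_smul]
  obtain ⟨hv, hf⟩ := fr.mid_apply hF g.2
  rcases o with _ | c
  · refine OnePoint.smul_infty_eq_self_iff.2 ?_
    show algebraMap F (AlgebraicClosure F) (planeMat q v f (g : ↥(SU 3 F q)) 1 0) = 0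
    simp only [chordVec] at ha
    rw [show planeMat q v f (g : ↥(SU 3 F q)) 1 0 = hermForm 3 F q (sv (g : ↥(SU 3 F q)) v) v from rfl,
      ha, herm_smul_left, fr.vv, mul_zero, map_zero]
  · have ha0 : a ≠ 0 := by
      rintro rfl
      exact sv_ne_zero _ (fr.chordVec_spec hF (some c)).1 (by rw [ha, zero_smul])
    simp only [chordVec] at ha
    rw [sv_add, sv_smul, hv, hf] at ha
    set n00 := planeMat q v f (g : ↥(SU 3 F q)) 0 0
    set n01 := planeMat q v f (g : ↥(SU 3 F q)) 0 1
    set n10 := planeMat q v f (g : ↥(SU 3 F q)) 1 0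
    set n11 := planeMat q v f (g : ↥(SU 3 F q)) 1 1
    have ha' : (n00 * c + n01) • v + (0 : F) • w + (n10 * c + n11) • f =
        (a * c) • v + (0 : F) • w + a • f := by
      linear_combination (norm := module) ha
    obtain ⟨l1, -, l3⟩ := fr.coord hF (n00 * c + n01) 0 (n10 * c + n11)
    obtain ⟨r1, -, r3⟩ := fr.coord hF (a * c) 0 a
    rw [ha', r1] at l1
    rw [ha', r3] at l3
    set φ := algebraMap F (AlgebraicClosure F)
    show Matrix.GeneralLinearGroup.map φ N • ((φ c : AlgebraicClosure F) : OnePoint (AlgebraicClosure F)) = _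
    rw [OnePoint.smul_some_eq_ite]
    show (if φ n10 * φ c + φ n11 = 0 then OnePoint.infty
      else (((φ n00 * φ c + φ n01) / (φ n10 * φ c + φ n11) : AlgebraicClosure F) :
        OnePoint (AlgebraicClosure F))) = ((φ c : AlgebraicClosure F) : OnePoint (AlgebraicClosure F))
    rw [← map_mul, ← map_mul, ← map_add, ← map_add, ← l1, ← l3,
      if_neg (fun h => ha0 (φ.injective (by rw [h, map_zero]))), map_mul,
      mul_div_cancel_left₀ _ (fun h => ha0 (φ.injective (by rw [h, map_zero])))]

theorem lineStab_of_fix_infty (fr : Frame q v w f) (hF : Fintype.card F = q ^ 2) (g : ↥(midStab H w))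
    (h : chordHom fr hF H g • (OnePoint.infty : OnePoint (AlgebraicClosure F)) = OnePoint.infty) :
    (g : ↥(SU 3 F q)) ∈ lineStab (midStab H w) v := by
  change Matrix.ProjGenLinGroup.mk (Matrix.GeneralLinearGroup.map (algebraMap F _)
    (planeHom fr hF H g)) • _ = _ at h
  rw [mk_smul, OnePoint.smul_infty_eq_self_iff] at h
  have e : planeMat q v f (g : ↥(SU 3 F q)) 1 0 = 0 :=
    (algebraMap F (AlgebraicClosure F)).injective (by rw [map_zero]; exact h)
  obtain ⟨hv, -⟩ := fr.mid_apply hF g.2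
  rw [e, zero_smul, add_zero] at hv
  refine ⟨g.2, _, ?_, hv⟩
  intro h0
  exact sv_ne_zero _ fr.v_ne (by rw [hv, h0, zero_smul])

/-- A chord whose group has order prime to the characteristic and large point stabilisers is short. -/
theorem chord_few (fr : Frame q v w f) (hF : Fintype.card F = q ^ 2) (p : ℕ) [Fact p.Prime]
    [CharP F p] (hp : ¬ p ∣ Nat.card (midStab H w)) {k : ℕ} (hk : 4 ≤ k)
    (hst : ∀ o : Option {c : F // c + c ^ q = 0},
      k * Nat.card (chordHom fr hF H).ker ≤ Nat.card (lineStab (midStab H w) (chordVec v f o))) :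
    q + 1 ≤ 12 ∧ (6 ≤ k → q + 1 ≤ 2) := by
  classical
  set φ := chordHom fr hF H
  haveI : Finite φ.range := Set.finite_range φ |>.to_subtype
  haveI : CharP (AlgebraicClosure F) p :=
    charP_of_injective_algebraMap (algebraMap F _).injective p
  have hD := isDicksonAction (p := p) φ.range
  have hpL : ¬ p ∣ Nat.card φ.range := fun h => hp (h.trans (Subgroup.card_range_dvd φ))
  haveI := Fintype.ofFinite (Option {c : F // c + c ^ q = 0})
  have h := hD.few_points hpL ((Finset.univ : Finset (Option {c : F // c + c ^ q = 0})).map ⟨chordPt, chordPt_injective⟩) hk ?_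
  · rwa [Finset.card_map, Finset.card_univ, ← Nat.card_eq_fintype_card, card_chord hF] at h
  intro x hx
  obtain ⟨o, -, rfl⟩ := Finset.mem_map.1 hx
  show k ≤ Nat.card (stabilizer φ.range (chordPt o))
  let S : Subgroup ↥(midStab H w) := (lineStab (midStab H w) (chordVec v f o)).subgroupOf (midStab H w)
  let ψ : ↥S →* PGL(2, AlgebraicClosure F) := φ.comp S.subtype
  have hS : Nat.card S = Nat.card (lineStab (midStab H w) (chordVec v f o)) :=
    Nat.card_congr (Subgroup.subgroupOfEquivOfLe
      (show lineStab (midStab H w) (chordVec v f o) ≤ midStab H w from fun _ h => h.1)).toEquiv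
  have hle : Nat.card ψ.range ≤ Nat.card (stabilizer φ.range (chordPt o)) := by
    refine Nat.card_le_card_of_injective (fun l : ↥ψ.range =>
      (⟨⟨(l : PGL(2, AlgebraicClosure F)), ?_⟩, ?_⟩ : stabilizer φ.range (chordPt o))) fun a b h => ?_
    · obtain ⟨s, hs⟩ := l.2
      exact ⟨s.1, hs⟩
    · obtain ⟨⟨s, hs⟩, hsl⟩ := l.2
      obtain ⟨-, a, -, ha⟩ := hs
      show (l : PGL(2, AlgebraicClosure F)) • chordPt o = chordPt o
      rw [← hsl]
      exact chordHom_fix fr hF s o ha
    · exact Subtype.ext (congrArg (fun z : ↥(stabilizer φ.range (chordPt o)) =>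
        ((z : ↥φ.range) : PGL(2, AlgebraicClosure F))) h)
  have hker : Nat.card ψ.ker ≤ Nat.card φ.ker :=
    Nat.card_le_card_of_injective (fun s : ↥ψ.ker => (⟨(s : ↥S).1, s.2⟩ : ↥φ.ker))
      fun a b h => Subtype.ext (Subtype.ext (congrArg (fun z : ↥φ.ker => ((z : ↥(midStab H w)))) h))
  have h1 := ψ.ker.card_mul_index
  rw [Subgroup.index_ker, hS] at h1
  have h2 : k * Nat.card φ.ker ≤ Nat.card (stabilizer φ.range (chordPt o)) * Nat.card φ.ker := by
    refine (hst o).trans (h1.ge.trans ?_)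
    rw [mul_comm]
    exact Nat.mul_le_mul hle hker
  exact Nat.le_of_mul_le_mul_right h2 Nat.card_pos

/-- If every point of a chord carries a non-trivial root part, the root part is full, or of order
two, or of order three with `q = 9`. -/
theorem chord_root (fr : Frame q v w f) (hF : Fintype.card F = q ^ 2) (hq : 3 ≤ q) (p : ℕ)
    [Fact p.Prime] [CharP F p] {z : ℕ} (hz : Nat.card (rootV H v) = z) (hz1 : 1 < z)
    (hall : ∀ o : Option {c : F // c + c ^ q = 0}, rootV H (chordVec v f o) ≠ ⊥) :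
    q ≤ z ∨ (p = 2 ∧ z = 2) ∨ (p = 3 ∧ z = 3 ∧ q ≤ 19) := by
  classical
  set φ := chordHom fr hF H
  haveI : Finite φ.range := Set.finite_range φ |>.to_subtype
  haveI : CharP (AlgebraicClosure F) p :=
    charP_of_injective_algebraMap (algebraMap F _).injective p
  have hD := isDicksonAction (p := p) φ.range
  have hpq : q ^ 2 - 1 ≠ 0 ∧ ¬ p ∣ q ^ 2 - 1 := by
    obtain ⟨p', e, -, hc, he, hpe⟩ := exists_char hF
    obtain rfl : p' = p := CharP.eq F hc ‹CharP F p›
    have h1 : 1 < q ^ 2 := Nat.one_lt_pow (by norm_num) (by omega)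
    refine ⟨by omega, fun h => (Fact.out : p'.Prime).ne_one (Nat.dvd_one.1 ?_)⟩
    have h2 : p' ∣ q ^ 2 := hpe ▸ dvd_pow (dvd_pow_self p' he.ne') (by norm_num)
    have := Nat.dvd_sub h2 h
    rwa [show q ^ 2 - (q ^ 2 - 1) = 1 by omega] at this
  obtain ⟨k, hk⟩ := (isPGroup_fixV hF p fr.v_ne fr.vv (H := midStab H w)).exists_card_eq
  rw [fr.fixV_midStab hF, hz] at hk
  -- a non-trivial root element moves all other points of the chord
  have hne : ∀ o : Option {c : F // c + c ^ q = 0}, hD.pPart (chordPt o) ≠ ⊥ := by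
    intro o
    obtain ⟨hy0, hy, hwy⟩ := fr.chordVec_spec hF o
    obtain ⟨u, hu, hu1⟩ := (Subgroup.bot_or_exists_ne_one _).resolve_left (hall o)
    have huM : u ∈ midStab H w := ⟨hu.1, 1, one_ne_zero, by rw [one_smul]; exact hu.2 w hwy⟩
    obtain ⟨w', f', fr'⟩ := exists_frame hF hy0 hy
    have hup : u ^ p = 1 := by
      obtain ⟨hm, hb⟩ := (fr'.mem_rootV_iff hF).1 hu
      obtain ⟨k1, k2, k3⟩ := fr'.coord_pow hF hm.2 p
      exact fr'.unip_ext hF k1 (by rw [k2, CharP.cast_eq_zero, zero_mul])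
        (by rw [k3 hb, CharP.cast_eq_zero, zero_mul])
    have hl1 : (φ.rangeRestrict ⟨u, huM⟩ : ↥φ.range) ≠ 1 := by
      intro h
      have hker : (⟨u, huM⟩ : ↥(midStab H w)) ∈ φ.ker := congrArg Subtype.val h
      obtain ⟨a, -, hav, haf⟩ := ker_chordHom_spec fr hF hker
      refine hu1 ?_
      by_contra
      have hup' : u ^ p ^ 1 = 1 := by rw [pow_one]; exact hup
      have e1 := fixed_unique hF p hup' hu1
        ((smul_pt_eq_iff u fr.v_ne fr.vv).2 ⟨a, hav⟩)
        ((smul_pt_eq_iff u (fr.f_ne hF) fr.ff).2 ⟨a, haf⟩)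
      obtain ⟨c, hc⟩ := pt_eq_pt_iff.1 e1
      have := fr.vf
      rw [hc, herm_smul_left, fr.ff, mul_zero] at this
      exact zero_ne_one this
    intro h
    have hmem : (φ.rangeRestrict ⟨u, huM⟩ : ↥φ.range) ∈ hD.pPart (chordPt o) := by
      refine ⟨chordHom_fix fr hF _ o (a := 1) (by rw [one_smul]; exact hu.2 _ hy), ?_⟩
      rw [← map_pow, show (⟨u, huM⟩ : ↥(midStab H w)) ^ p = 1 from Subtype.ext hup, map_one]
    rw [h, Subgroup.mem_bot] at hmem
    exact hl1 hmem
  -- the size of the unipotent part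
  have hQ : Nat.card (hD.pPart (chordPt (none : Option {c : F // c + c ^ q = 0}))) ∣ z := by
    set o₀ : Option {c : F // c + c ^ q = 0} := none
    obtain ⟨j, hj⟩ := (hD.isPGroup_pPart (chordPt o₀)).exists_card_eq
    have hsub : (hD.pPart (chordPt o₀)).map φ.range.subtype ≤
        ((lineStab (midStab H w) v).subgroupOf (midStab H w)).map φ := by
      rintro _ ⟨l, hl, rfl⟩
      obtain ⟨g, hg⟩ := l.2
      refine ⟨g, ?_, hg⟩
      have hfix : chordHom fr hF H g • (OnePoint.infty : OnePoint (AlgebraicClosure F)) = OnePoint.infty := by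
        rw [hg]
        exact hl.1
      exact lineStab_of_fix_infty fr hF g hfix
    have h1 := Subgroup.card_dvd_of_le hsub
    rw [Subgroup.card_map_of_injective φ.range.subtype_injective] at h1
    have h2 := h1.trans (Subgroup.card_map_dvd _ φ)
    rw [Nat.card_congr (Subgroup.subgroupOfEquivOfLe
      (show lineStab (midStab H w) v ≤ midStab H w from fun _ h => h.1)).toEquiv,
      card_lineStab fr.v_ne, fr.fixV_midStab hF, hz, hj] at h2
    rw [hj]
    refine (Nat.Coprime.pow_left j ((Nat.Prime.coprime_iff_not_dvd Fact.out).2 fun h => hpq.2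
      (h.trans (eigCard_dvd hF fr.v_ne)))).dvd_of_dvd_mul_right h2
  have hinj : z ≤ Nat.card (hD.pPart (chordPt (none : Option {c : F // c + c ^ q = 0}))) := by
    have hM : ∀ u ∈ rootV H v, u ∈ midStab H w ∧ u ^ p = 1 := by
      intro u hu
      refine ⟨⟨hu.1, 1, one_ne_zero, by rw [one_smul]; exact hu.2 w (fr.wv hF)⟩, ?_⟩
      obtain ⟨hm, hb⟩ := (fr.mem_rootV_iff hF).1 hu
      obtain ⟨k1, k2, k3⟩ := fr.coord_pow hF hm.2 p
      exact fr.unip_ext hF k1 (by rw [k2, CharP.cast_eq_zero, zero_mul])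
        (by rw [k3 hb, CharP.cast_eq_zero, zero_mul])
    rw [← hz]
    refine Nat.card_le_card_of_injective (fun u : ↥(rootV H v) =>
      (⟨φ.rangeRestrict ⟨u, (hM u u.2).1⟩, chordHom_fix fr hF _ none (a := 1)
        (by rw [one_smul]; exact u.2.2 v fr.vv), by
          rw [← map_pow, show (⟨(u : ↥(SU 3 F q)), (hM u u.2).1⟩ : ↥(midStab H w)) ^ p = 1 from
            Subtype.ext (hM u u.2).2, map_one]⟩ :
        ↥(hD.pPart (chordPt (none : Option {c : F // c + c ^ q = 0}))))) fun u u' h => ?_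
    have h' : φ ⟨u, (hM u u.2).1⟩ = φ ⟨u', (hM u' u'.2).1⟩ :=
      congrArg (fun l : ↥(hD.pPart (chordPt (none : Option {c : F // c + c ^ q = 0}))) =>
        ((l : ↥φ.range) : PGL(2, AlgebraicClosure F))) h
    have hker : (⟨u, (hM u u.2).1⟩ : ↥(midStab H w))⁻¹ * ⟨u', (hM u' u'.2).1⟩ ∈ φ.ker := by
      rw [MonoidHom.mem_ker, map_mul, map_inv, h', inv_mul_cancel]
    have hv : sv ((u : ↥(SU 3 F q))⁻¹ * (u' : ↥(SU 3 F q))) v = v :=
      ((mul_mem (inv_mem u.2) u'.2 : (u : ↥(SU 3 F q))⁻¹ * u' ∈ rootV H v).2 v fr.vv)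
    have := ker_chordHom_injective fr hF hker (one_mem _) (a := 1) (by rw [one_smul]; exact hv)
      (by rw [one_smul]; exact sv_one v)
    exact Subtype.ext (inv_mul_eq_one.1 (congrArg Subtype.val this))
  set o₀ : Option {c : F // c + c ^ q = 0} := none
  have hQz : Nat.card (hD.pPart (chordPt o₀)) = z :=
    le_antisymm (Nat.le_of_dvd (by omega) hQ) hinj
  have horb : q + 1 ≤ (stabilizer φ.range (chordPt o₀)).index := by
    rw [index_stabilizer, ← card_chord hF, ← Nat.card_coe_set_eq]
    haveI : Finite (orbit φ.range (chordPt o₀)) := Set.finite_range _ |>.to_subtype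
    exact Nat.card_le_card_of_injective
      (fun o => (⟨chordPt o, hD.pPart_orbit (hne o₀) (hne o)⟩ : orbit φ.range (chordPt o₀)))
      fun a b h => chordPt_injective (congrArg Subtype.val h)
  have hzL : z ∣ Nat.card φ.range := hQz ▸ Subgroup.card_subgroup_dvd_card _
  have hpz : p ∣ z := by
    rw [hk] at hz1 ⊢
    refine dvd_pow_self p ?_
    rintro rfl
    rw [pow_zero] at hz1
    omega
  have hpL : p ∣ Nat.card φ.range := hpz.trans hzL
  rcases hD.classify with ⟨x, hx⟩ | ⟨n, hn, hpn, ⟨e⟩⟩ | ⟨h12, ⟨e⟩⟩ | ⟨h24, ⟨e⟩⟩ | ⟨h60, ⟨e⟩⟩ |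
      ⟨x, y, -, -, hx, hidx, -, -⟩
  · exfalso
    have : (stabilizer φ.range (chordPt o₀)).index ≤ 1 := by
      obtain ⟨u, hu, hu1⟩ := (Subgroup.bot_or_exists_ne_one _).resolve_left (hne o₀)
      obtain ⟨a, ha⟩ := hD.fix_one u hu1 hu.2
      have hxo : x = chordPt o₀ := ((ha x).1 (hx u)).trans ((ha _).1 hu.1).symm
      have : stabilizer φ.range (chordPt o₀) = ⊤ := eq_top_iff.2 fun g _ => hxo ▸ hx g
      rw [this, Subgroup.index_top]
    omega
  · right; left
    rw [Nat.card_congr e.toEquiv, DihedralGroup.nat_card] at hzL hpL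
    have hp2 : p = 2 := by
      rcases (Fact.out : p.Prime).dvd_mul.1 hpL with h | h
      · exact (Nat.prime_dvd_prime_iff_eq Fact.out Nat.prime_two).1 h
      · exact absurd h hpn
    subst hp2
    have hz2 : z ∣ 2 := by
      rw [hk] at hzL ⊢
      exact (Nat.Coprime.pow_left k ((Nat.Prime.coprime_iff_not_dvd Nat.prime_two).2 hpn)
        ).dvd_of_dvd_mul_right hzL
    exact ⟨rfl, le_antisymm (Nat.le_of_dvd (by norm_num) hz2) hz1⟩
  · exact absurd hpL (by
      rw [Nat.card_congr e.toEquiv, nat_card_alternatingGroup, Nat.card_fin]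
      norm_num
      exact h12)
  · exact absurd hpL (by
      rw [Nat.card_congr e.toEquiv, Nat.card_perm, Nat.card_fin]
      exact h24)
  · have h60' : Nat.card φ.range = 60 := by
      rw [Nat.card_congr e.toEquiv, nat_card_alternatingGroup, Nat.card_fin]
      rfl
    rw [h60'] at hzL hpL
    have hp3 : p = 3 := h60.resolve_left (not_not.2 hpL)
    subst hp3
    right; right
    have hz3 : z = 3 := by
      have h3 : z ∣ 3 := by
        rw [hk] at hzL ⊢
        exact (Nat.Coprime.pow_left k (by norm_num : Nat.Coprime 3 20)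
          ).dvd_of_dvd_mul_right (show 3 ^ k ∣ 3 * 20 by simpa using hzL)
      rcases (Nat.dvd_prime Nat.prime_three).1 h3 with h | h <;> omega
    refine ⟨rfl, hz3, ?_⟩
    have h1 := (stabilizer φ.range (chordPt o₀)).card_mul_index
    have h2 : Nat.card (hD.pPart (chordPt o₀)) ≤ Nat.card (stabilizer φ.range (chordPt o₀)) :=
      Nat.le_of_dvd Nat.card_pos (Subgroup.card_dvd_of_le (hD.pPart_le _))
    rw [h60'] at h1
    rw [hQz, hz3] at h2
    have := Nat.mul_le_mul_right (stabilizer φ.range (chordPt o₀)).index h2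
    omega
  · left
    obtain ⟨g, hg⟩ := hD.pPart_orbit hx (hne o₀)
    have hg' : g • x = chordPt o₀ := hg
    have hQx : Nat.card (hD.pPart x) = z := by rw [← hQz, ← hg', hD.card_pPart_smul]
    have hidx' : (stabilizer φ.range (chordPt o₀)).index = z + 1 := by
      rw [index_stabilizer, ← hg', orbit_smul, ← index_stabilizer, hidx, hQx]
    omega

end CfsgLib.MinIndexPSU3
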