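import Mathlib
import Cfsg.Agent.MinIndexPSU3.Point
import Cfsg.Agent.Classical.Unitary.InvolutionsThree

/-!
The unipotent part of a point stabiliser when its root part is small.
-/

set_option autoImplicit false

namespace CfsgLib.MinIndexPSU3

open Cfsg CfsgLib.Unitary
open scoped Matrix

variable {F : Type*} [Field F] [Fintype F] {q : ℕ} {H : Subgroup ↥(SU 3 F q)} {v w f : Fin 3 → F}

/-- The `w` coordinate as a homomorphism. -/
def bHom (fr : Frame q v w f) (hF : Fintype.card F = q ^ 2) (H : Subgroup ↥(SU 3 F q)) :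
    ↥(fixV H v) →* Multiplicative F :=
  MonoidHom.mk' (fun g => Multiplicative.ofAdd (bCoord q w f (g : ↥(SU 3 F q)))) fun g h => by
    show Multiplicative.ofAdd (bCoord q w f ((g : ↥(SU 3 F q)) * h)) = _
    rw [(fr.coord_mul hF g.2.2 h.2.2).1, ofAdd_add]

theorem ker_bHom (fr : Frame q v w f) (hF : Fintype.card F = q ^ 2) (H : Subgroup ↥(SU 3 F q)) :
    (bHom fr hF H).ker = (rootV H v).subgroupOf (fixV H v) := by
  ext g
  rw [MonoidHom.mem_ker, Subgroup.mem_subgroupOf, fr.mem_rootV_iff hF]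
  show Multiplicative.ofAdd _ = 1 ↔ _
  rw [ofAdd_eq_one]
  exact ⟨fun h => ⟨g.2, h⟩, fun h => h.2⟩

theorem card_fixV_eq (fr : Frame q v w f) (hF : Fintype.card F = q ^ 2) (H : Subgroup ↥(SU 3 F q)) :
    Nat.card (fixV H v) = Nat.card (rootV H v) * Nat.card (bHom fr hF H).range := by
  rw [← (bHom fr hF H).ker.card_mul_index, Subgroup.index_ker, ker_bHom,
    Nat.card_congr (Subgroup.subgroupOfEquivOfLe (rootV_le_fixV fr.vv)).toEquiv]

section TrivialRoot

variable (hbot : rootV H v = ⊥)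

include hbot

theorem Frame.eq_one_of_b (fr : Frame q v w f) (hF : Fintype.card F = q ^ 2) {g : ↥(SU 3 F q)}
    (hg : g ∈ fixV H v) (hb : bCoord q w f g = 0) : g = 1 := by
  have : g ∈ rootV H v := (fr.mem_rootV_iff hF).2 ⟨hg, hb⟩
  rw [hbot] at this
  exact Subgroup.mem_bot.1 this

theorem Frame.b_mul_conj (fr : Frame q v w f) (hF : Fintype.card F = q ^ 2) {g h : ↥(SU 3 F q)}
    (hg : g ∈ fixV H v) (hh : h ∈ fixV H v) :
    bCoord q w f g ^ q * bCoord q w f h = bCoord q w f h ^ q * bCoord q w f g := by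
  obtain ⟨b1, c1⟩ := fr.coord_mul hF hg.2 hh.2
  obtain ⟨b2, c2⟩ := fr.coord_mul hF hh.2 hg.2
  have hcom : g * h = h * g := by
    have hm : g * h * (h * g)⁻¹ ∈ fixV H v := mul_mem (mul_mem hg hh) (inv_mem (mul_mem hh hg))
    have hb := (fr.coord_mul hF hm.2 (mul_mem hh hg).2).1
    rw [inv_mul_cancel_right, b1, b2] at hb
    exact mul_inv_eq_one.1 (fr.eq_one_of_b hbot hF hm (by linear_combination -hb))
  rw [hcom] at c1
  linear_combination c1 - c2

theorem card_fixV_le (hF : Fintype.card F = q ^ 2) (hv0 : v ≠ 0) (hvv : hermForm 3 F q v v = 0) :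
    Nat.card (fixV H v) ≤ q := by
  obtain ⟨w, f, fr⟩ := exists_frame hF hv0 hvv
  by_cases hP : fixV H v = ⊥
  · rw [hP, Subgroup.card_bot]; exact one_le_two.trans (two_le_q hF)
  obtain ⟨u, hu, hu1⟩ := (Subgroup.bot_or_exists_ne_one _).resolve_left hP
  have hb0 : bCoord q w f u ≠ 0 := fun h => hu1 (fr.eq_one_of_b hbot hF hu h)
  refine le_of_le_of_eq (Nat.card_le_card_of_injective
    (fun g : ↥(fixV H v) => (⟨bCoord q w f (g : ↥(SU 3 F q)) / bCoord q w f u, ?_⟩ :
      {x : F // x ^ q = x})) fun g g' h => ?_) (card_fixed hF)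
  · rw [div_pow, div_eq_div_iff (pow_ne_zero q hb0) hb0]
    linear_combination fr.b_mul_conj hbot hF g.2 hu
  · have h' : bCoord q w f (g : ↥(SU 3 F q)) = bCoord q w f (g' : ↥(SU 3 F q)) :=
      (div_left_inj' hb0).1 (congrArg Subtype.val h)
    have hm : (g : ↥(SU 3 F q)) * (g' : ↥(SU 3 F q))⁻¹ ∈ fixV H v := mul_mem g.2 (inv_mem g'.2)
    have hb := (fr.coord_mul hF hm.2 g'.2.2).1
    rw [inv_mul_cancel_right, ← h'] at hb
    exact Subtype.ext (mul_inv_eq_one.1 (fr.eq_one_of_b hbot hF hm (by linear_combination -hb)))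

/-- The eigenvalues on a point with a non-trivial abelian unipotent part. -/
theorem eig_pow_of_fixV (hF : Fintype.card F = q ^ 2) (hv0 : v ≠ 0) (hvv : hermForm 3 F q v v = 0)
    (hP : fixV H v ≠ ⊥) (g : ↥(lineStab H v)) : (eigHom H v hv0 g : F) ^ (3 * (q - 1)) = 1 := by
  obtain ⟨w, f, fr⟩ := exists_frame hF hv0 hvv
  obtain ⟨u, hu, hu1⟩ := (Subgroup.bot_or_exists_ne_one _).resolve_left hP
  have hb0 : bCoord q w f u ≠ 0 := fun h => hu1 (fr.eq_one_of_b hbot hF hu h)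
  set a : F := (eigHom H v hv0 g : F) with ha
  have ha0 : a ≠ 0 := Units.ne_zero _
  obtain ⟨hv', hb', -⟩ := fr.coord_conj hF (sv_eq_eigHom hv0 g) hu.2
  have hu' : (g : ↥(SU 3 F q)) * u * (g : ↥(SU 3 F q))⁻¹ ∈ fixV H v :=
    ⟨mul_mem (mul_mem g.2.1 hu.1) (inv_mem g.2.1), hv'⟩
  have key := fr.b_mul_conj hbot hF hu hu'
  set b := bCoord q w f u
  set b' := bCoord q w f ((g : ↥(SU 3 F q)) * u * (g : ↥(SU 3 F q))⁻¹)
  rw [← ha] at hb'
  have hq2 := congrArg (fun x => x ^ q) hb'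
  simp only [mul_pow, pow_q_q hF] at hq2
  have h3 : b * b ^ q * ((a ^ q) ^ 3 - a ^ 3) = 0 := by
    linear_combination (-(b ^ q * a ^ q)) * hb' + (b * a) * hq2 + (a * a ^ q) * key
  have h4 : (a ^ q) ^ 3 = a ^ 3 :=
    sub_eq_zero.1 ((mul_eq_zero.1 h3).resolve_left (mul_ne_zero hb0 (pow_ne_zero q hb0)))
  have hq := two_le_q hF
  refine mul_right_cancel₀ (pow_ne_zero 3 ha0) ?_
  rw [one_mul, ← pow_add, show 3 * (q - 1) + 3 = q * 3 by omega, pow_mul, h4]

theorem fixV_eq_bot_of_even (hF : Fintype.card F = q ^ 2) (h2 : (2 : F) = 0) (hv0 : v ≠ 0)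
    (hvv : hermForm 3 F q v v = 0) : fixV H v = ⊥ := by
  obtain ⟨w, f, fr⟩ := exists_frame hF hv0 hvv
  rw [Subgroup.eq_bot_iff_forall]
  intro g hg
  refine fr.eq_one_of_b hbot hF hg ?_
  obtain ⟨hb, hc⟩ := fr.coord_mul hF hg.2 hg.2
  rw [← two_mul, h2, zero_mul] at hb
  rw [← two_mul, h2, zero_mul, zero_sub] at hc
  have h := fr.eq_one_of_b hbot hF (mul_mem hg hg) hb
  rw [h] at hc
  simp only [cCoord, sv_one, fr.ff] at hc
  rcases mul_eq_zero.1 (show bCoord q w f g ^ q * bCoord q w f g = 0 by linear_combination hc) with h' | h'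
  · exact eq_zero_of_pow_eq_zero h'
  · exact h'

/-- Modulo the unipotent part every element fixing the point commutes with a given involution. -/
theorem exists_commute (hF : Fintype.card F = q ^ 2) (hq : Odd q) (hv0 : v ≠ 0)
    (hvv : hermForm 3 F q v v = 0) (p : ℕ) [Fact p.Prime] [CharP F p] {s : ↥(SU 3 F q)} (hs : s ∈ H)
    (hsv : sv s v = (-1 : F) • v) {g : ↥(SU 3 F q)} (hg : g ∈ lineStab H v) :
    ∃ u ∈ fixV H v, Commute s (g * u) := by
  obtain ⟨w, f, fr⟩ := exists_frame hF hv0 hvv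
  have hsS : s ∈ lineStab H v := ⟨hs, -1, neg_ne_zero.2 one_ne_zero, hsv⟩
  have hinv : ∀ u ∈ fixV H v, s * u * s⁻¹ = u⁻¹ := by
    intro u hu
    obtain ⟨hv', hb', -⟩ := fr.coord_conj hF hsv hu.2
    have hu' : s * u * s⁻¹ ∈ fixV H v := ⟨mul_mem (mul_mem hs hu.1) (inv_mem hs), hv'⟩
    rw [Odd.neg_one_pow hq] at hb'
    have hb := (fr.coord_mul hF hu'.2 hu.2).1
    exact eq_inv_of_mul_eq_one_left
      (fr.eq_one_of_b hbot hF (mul_mem hu' hu) (by linear_combination hb - hb'))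
  set x := g⁻¹ * s * g * s⁻¹ with hx
  have hxS : x ∈ lineStab H v := mul_mem (mul_mem (mul_mem (inv_mem hg) hsS) hg) (inv_mem hsS)
  have hxP : x ∈ fixV H v := by
    have h1 : eigHom H v hv0 ⟨x, hxS⟩ = 1 := by
      rw [show (⟨x, hxS⟩ : ↥(lineStab H v)) = ⟨g, hg⟩⁻¹ * ⟨s, hsS⟩ * ⟨g, hg⟩ * ⟨s, hsS⟩⁻¹ from rfl,
        map_mul, map_mul, map_mul, map_inv, map_inv]
      rw [inv_mul_cancel_comm, mul_inv_cancel]
    refine ⟨hxS.1, ?_⟩
    have := sv_eq_eigHom hv0 ⟨x, hxS⟩
    rwa [h1, Units.val_one, one_smul] at this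
  have hodd : Odd (Nat.card (fixV H v)) := by
    obtain ⟨k, hk⟩ := (isPGroup_fixV hF p hv0 hvv).exists_card_eq (G := ↥(fixV H v))
    rw [hk]
    refine Odd.pow ((Fact.out : p.Prime).odd_of_ne_two ?_)
    rintro rfl
    exact two_ne_zero_of_odd hF hq (CharP.cast_eq_zero F 2)
  obtain ⟨m, hm⟩ := hodd
  set u := x ^ (m + 1) with hu
  have huP : u ∈ fixV H v := pow_mem hxP _
  refine ⟨u, huP, ?_⟩
  have hxx : u * u = x := by
    rw [hu, ← pow_add, show m + 1 + (m + 1) = Nat.card (fixV H v) + 1 by omega, pow_succ]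
    have : (⟨x, hxP⟩ : ↥(fixV H v)) ^ Nat.card (fixV H v) = 1 := pow_card_eq_one'
    rw [show x ^ Nat.card (fixV H v) = 1 from congrArg Subtype.val this, one_mul]
  show s * (g * u) = g * u * s
  have h1 : s * g = g * x * s := by rw [hx]; group
  have h2 : s * u = u⁻¹ * s := by rw [← hinv u huP, inv_mul_cancel_right]
  calc s * (g * u) = g * x * (s * u) := by rw [← mul_assoc, h1, mul_assoc]
    _ = g * u * (u * u⁻¹) * s := by rw [h2, ← hxx]; group
    _ = g * u * s := by rw [mul_inv_cancel, mul_one]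

end TrivialRoot

/-- With a root part of order two the unipotent part has order at most eight. -/
theorem card_fixV_le_eight (hF : Fintype.card F = q ^ 2) (h2 : (2 : F) = 0) (hv0 : v ≠ 0)
    (hvv : hermForm 3 F q v v = 0) (hz : Nat.card (rootV H v) = 2) : Nat.card (fixV H v) ≤ 8 := by
  classical
  obtain ⟨w, f, fr⟩ := exists_frame hF hv0 hvv
  rw [card_fixV_eq fr hF H, hz]
  suffices h : Nat.card (bHom fr hF H).range ≤ 4 by omega
  obtain ⟨r₀, hr₀, huniq⟩ : ∃ r₀ : ↥(rootV H v), r₀ ≠ 1 ∧ ∀ r : ↥(rootV H v), r ≠ 1 → r = r₀ := by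
    obtain ⟨a, b, hab, huniv⟩ := Nat.card_eq_two_iff.1 hz
    have hcases : ∀ r : ↥(rootV H v), r = a ∨ r = b := fun r => huniv.ge (Set.mem_univ r)
    rcases hcases 1 with h1 | h1
    · exact ⟨b, fun h => hab (h1.symm.trans h.symm), fun r hr =>
        (hcases r).resolve_left fun h => hr (h.trans h1.symm)⟩
    · exact ⟨a, fun h => hab (h.trans h1), fun r hr =>
        (hcases r).resolve_right fun h => hr (h.trans h1.symm)⟩
  set c₀ := cCoord q f (r₀ : ↥(SU 3 F q))
  have hc₀ : c₀ ≠ 0 := fun h => hr₀ (Subtype.ext (fr.unip_ext hF ((fr.mem_rootV_iff hF).1 r₀.2).1.2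
    ((fr.mem_rootV_iff hF).1 r₀.2).2 h))
  set B := (bHom fr hF H).range with hB
  have hN : ∀ b : F, Multiplicative.ofAdd b ∈ B → b ≠ 0 → b ^ q * b = c₀ := by
    rintro b ⟨g, hg⟩ hb0
    have hgb : bCoord q w f (g : ↥(SU 3 F q)) = b := Multiplicative.ofAdd.injective hg
    obtain ⟨h1, h3⟩ := fr.coord_mul hF g.2.2 g.2.2
    rw [← two_mul, h2, zero_mul] at h1
    rw [← two_mul, h2, zero_mul, zero_sub, hgb] at h3
    have hr : (g : ↥(SU 3 F q)) * g ∈ rootV H v :=
      (fr.mem_rootV_iff hF).2 ⟨mul_mem g.2 g.2, h1⟩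
    have hne : (⟨_, hr⟩ : ↥(rootV H v)) ≠ 1 := by
      intro h
      rw [show (g : ↥(SU 3 F q)) * g = 1 from congrArg Subtype.val h] at h3
      simp only [cCoord, sv_one, fr.ff] at h3
      rcases mul_eq_zero.1 (show b ^ q * b = 0 by linear_combination h3) with h' | h'
      · exact hb0 (eq_zero_of_pow_eq_zero h')
      · exact hb0 h'
    have := congrArg (fun r : ↥(rootV H v) => cCoord q f (r : ↥(SU 3 F q))) (huniq _ hne)
    simp only at this
    linear_combination this - h3 + (b ^ q * b) * h2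
  have hT : ∀ b b' : F, Multiplicative.ofAdd b ∈ B → Multiplicative.ofAdd b' ∈ B → b ≠ 0 → b' ≠ 0 →
      b ≠ b' → b ^ q * b' + b' ^ q * b = c₀ := by
    intro b b' hb hb' h0 h0' hne
    have hs : b + b' ≠ 0 := fun h => hne (by linear_combination h - b' * h2)
    have := hN (b + b') (mul_mem hb hb') hs
    rw [add_pow_q hF] at this
    linear_combination this - hN b hb h0 - hN b' hb' h0' - c₀ * h2
  have key : ∀ b b' b'' : F, Multiplicative.ofAdd b ∈ B → Multiplicative.ofAdd b' ∈ B →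
      Multiplicative.ofAdd b'' ∈ B → b ≠ 0 → b' ≠ 0 → b'' ≠ 0 → b ≠ b' → b ≠ b'' → b' ≠ b'' →
      b = b' + b'' := by
    intro b b' b'' hb hb' hb'' h0 h0' h0'' h1 h3 h4
    by_contra hne
    have hs : b' + b'' ≠ 0 := fun h => h4 (by linear_combination h - b'' * h2)
    have e := hT b (b' + b'') hb (mul_mem hb' hb'') h0 hs hne
    rw [add_pow_q hF] at e
    exact hc₀ (by linear_combination e - hT b b' hb hb' h0 h0' h1 - hT b b'' hb hb'' h0 h0'' h3)
  by_cases h1 : ∀ x ∈ B, ∀ y ∈ B, x ≠ 1 → y ≠ 1 → x = y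
  · by_cases hb : B = ⊥
    · rw [hb, Subgroup.card_bot]; norm_num
    obtain ⟨x, hx, hx1⟩ := (Subgroup.bot_or_exists_ne_one _).resolve_left hb
    have : (B : Set (Multiplicative F)) ⊆ ↑({1, x} : Finset (Multiplicative F)) := fun y hy => by
      by_cases hy1 : y = 1
      · simp [hy1]
      · simp [h1 y hy x hx hy1 hx1]
    refine (Nat.card_mono (Finset.finite_toSet _) this).trans ?_
    rw [Nat.card_coe_set_eq, Set.ncard_coe_finset]
    exact Finset.card_le_two.trans (by norm_num)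
  push Not at h1
  obtain ⟨x, hx, y, hy, hx1, hy1, hxy⟩ := h1
  have : (B : Set (Multiplicative F)) ⊆ ↑({1, x, y, x * y} : Finset (Multiplicative F)) := fun z hz => by
    by_cases hz1 : z = 1
    · simp [hz1]
    by_cases hzx : z = x
    · simp [hzx]
    by_cases hzy : z = y
    · simp [hzy]
    have h0 : ∀ t : Multiplicative F, t ≠ 1 → Multiplicative.toAdd t ≠ 0 := fun t ht h =>
      ht (Multiplicative.toAdd.injective h)
    have e := key (Multiplicative.toAdd z) (Multiplicative.toAdd x) (Multiplicative.toAdd y) hz hx hy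
      (h0 z hz1) (h0 x hx1) (h0 y hy1) (fun h => hzx (Multiplicative.toAdd.injective h))
      (fun h => hzy (Multiplicative.toAdd.injective h)) (fun h => hxy (Multiplicative.toAdd.injective h))
    have : z = x * y := Multiplicative.toAdd.injective e
    simp [this]
  refine (Nat.card_mono (Finset.finite_toSet _) this).trans ?_
  rw [Nat.card_coe_set_eq, Set.ncard_coe_finset]
  exact Finset.card_le_four

/-- The eigenvalues when the root part has order two or three. -/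
theorem eig_pow_of_small_root (hF : Fintype.card F = q ^ 2) (hv0 : v ≠ 0)
    (hvv : hermForm 3 F q v v = 0) {z : ℕ} (hz : Nat.card (rootV H v) = z) (hz2 : z = 2 ∨ z = 3)
    (g : ↥(lineStab H v)) : (eigHom H v hv0 g : F) ^ ((z - 1) * (q + 1)) = 1 := by
  classical
  obtain ⟨w, f, fr⟩ := exists_frame hF hv0 hvv
  set a : F := (eigHom H v hv0 g : F)
  have hconj : ∀ r : ↥(rootV H v), ∃ r' : ↥(rootV H v),
      cCoord q f (r' : ↥(SU 3 F q)) = cCoord q f (r : ↥(SU 3 F q)) * a ^ (q + 1) := by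
    intro r
    refine ⟨⟨_, conj_mem_rootV hF g.2.1 (sv_eq_eigHom hv0 g) r.2⟩, ?_⟩
    obtain ⟨hm, hb⟩ := (fr.mem_rootV_iff hF).1 r.2
    exact ((fr.coord_conj hF (sv_eq_eigHom hv0 g) hm.2).2.2 hb).2
  choose σ hσ using hconj
  -- iterate
  obtain ⟨r, hr1⟩ : ∃ r : ↥(rootV H v), r ≠ 1 := by
    by_contra h
    push Not at h
    haveI : Subsingleton ↥(rootV H v) := ⟨fun a b => (h a).trans (h b).symm⟩
    have := Finite.card_le_one_iff_subsingleton.2 this
    omega
  have hc : cCoord q f (r : ↥(SU 3 F q)) ≠ 0 := fun h => hr1 (Subtype.ext (fr.unip_ext hF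
    ((fr.mem_rootV_iff hF).1 r.2).1.2 ((fr.mem_rootV_iff hF).1 r.2).2 h))
  have hne : ∀ k, σ^[k] r ≠ 1 ∧
      cCoord q f ((σ^[k] r : ↥(rootV H v)) : ↥(SU 3 F q)) =
        cCoord q f (r : ↥(SU 3 F q)) * (a ^ (q + 1)) ^ k := by
    intro k
    have h : cCoord q f ((σ^[k] r : ↥(rootV H v)) : ↥(SU 3 F q)) =
        cCoord q f (r : ↥(SU 3 F q)) * (a ^ (q + 1)) ^ k := by
      induction k with
      | zero => simp
      | succ k ih => rw [Function.iterate_succ_apply', hσ, ih]; ring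
    refine ⟨fun h1 => ?_, h⟩
    rw [h1] at h
    simp only [OneMemClass.coe_one, cCoord, sv_one, fr.ff] at h
    exact mul_ne_zero hc (pow_ne_zero k (pow_ne_zero _ (Units.ne_zero _))) h.symm
  have hinj : ∀ i j, i ≤ j → σ^[i] r = σ^[j] r → (a ^ (q + 1)) ^ (j - i) = 1 := by
    intro i j hij h
    have e1 := (hne i).2
    rw [h, (hne j).2] at e1
    have h0 : (a ^ (q + 1)) ^ i ≠ 0 := pow_ne_zero i (pow_ne_zero _ (Units.ne_zero _))
    refine mul_right_cancel₀ h0 ?_
    rw [one_mul, ← pow_add, Nat.sub_add_cancel hij]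
    exact mul_left_cancel₀ hc e1
  haveI := Fintype.ofFinite ↥(rootV H v)
  have hcard : Fintype.card {x : ↥(rootV H v) // x ≠ 1} = z - 1 := by
    rw [Fintype.card_subtype_compl, Fintype.card_subtype_eq, ← Nat.card_eq_fintype_card, hz]
  obtain ⟨i, j, hij, h⟩ := Fintype.exists_ne_map_eq_of_card_lt
    (fun k : Fin z => (⟨σ^[k.1] r, (hne k.1).1⟩ : {x : ↥(rootV H v) // x ≠ 1}))
    (by rw [hcard, Fintype.card_fin]; omega)
  have h' : σ^[i.1] r = σ^[j.1] r := congrArg Subtype.val h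
  rw [mul_comm, pow_mul]
  rcases Nat.lt_or_gt_of_ne (fun he => hij (Fin.ext he)) with hl | hl
  · have e := hinj _ _ hl.le h'
    rcases hz2 with rfl | rfl
    · rwa [show j.1 - i.1 = 2 - 1 by omega] at e
    · rcases (show j.1 - i.1 = 1 ∨ j.1 - i.1 = 2 by omega) with e1 | e1 <;> rw [e1] at e
      · rw [pow_one] at e; rw [e, one_pow]
      · exact e
  · have e := hinj _ _ hl.le h'.symm
    rcases hz2 with rfl | rfl
    · rwa [show i.1 - j.1 = 2 - 1 by omega] at e
    · rcases (show i.1 - j.1 = 1 ∨ i.1 - j.1 = 2 by omega) with e1 | e1 <;> rw [e1] at e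
      · rw [pow_one] at e; rw [e, one_pow]
      · exact e

end CfsgLib.MinIndexPSU3
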