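import Mathlib
import Cfsg.Agent.MinIndexPSU3.Local

/-!
In even characteristic no subgroup of large order has point stabilisers of order prime to the
characteristic: the second fixed point would pair the odd number of points.
-/

set_option autoImplicit false

namespace CfsgLib.MinIndexPSU3

open Cfsg CfsgLib.Unitary MulAction
open scoped Matrix

variable {F : Type*} [Field F] [Fintype F] {q : ℕ} {H : Subgroup ↥(SU 3 F q)}

/-- A generator of a full torus fixes exactly one further point. -/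
theorem exists_partner_point (hF : Fintype.card F = q ^ 2) (hq : 3 ≤ q) {v : Fin 3 → F} (hv0 : v ≠ 0)
    (hvv : hermForm 3 F q v v = 0) {g : ↥(SU 3 F q)} {a : F} (ha : sv g v = a • v)
    (hord : orderOf a = q ^ 2 - 1) :
    ∃ M : Pt q F, M ≠ pt v hv0 hvv ∧ ∀ N : Pt q F, g • N = N ↔ (N = pt v hv0 hvv ∨ N = M) := by
  obtain ⟨w, f, fr⟩ := exists_frame hF hv0 hvv
  obtain ⟨ha0, al, m, ga, de, ep, hw, hf, hm, hep⟩ := fr.triangular hF g ha
  have hne : ∀ n : ℕ, 0 < n → n < q ^ 2 - 1 → a ^ n ≠ 1 := fun n hn hlt h => by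
    have := Nat.le_of_dvd hn (orderOf_dvd_of_pow_eq_one h)
    omega
  have hsq : 3 * q ≤ q ^ 2 := by rw [pow_two]; exact Nat.mul_le_mul_right q hq
  have hae : a ≠ ep := by
    rintro rfl
    exact hne (q + 1) (by omega) (by omega) (by rw [pow_succ', hep])
  have hma : m ≠ a := by
    intro h
    refine hne (q - 2) (by omega) (by omega) (mul_right_cancel₀ (pow_ne_zero 2 ha0) ?_)
    rw [one_mul, ← pow_add, Nat.sub_add_cancel (by omega : 2 ≤ q), ← hm, h, pow_two]
  have hme : m ≠ ep := by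
    intro h
    refine hne (2 * q - 1) (by omega) (by omega) (mul_right_cancel₀ ha0 ?_)
    rw [one_mul, ← pow_succ, show 2 * q - 1 + 1 = q + q by omega, pow_add]
    linear_combination a * hep - (a ^ q) * hm + (a * a ^ q) * h
  -- the second fixed point
  set b := de / (ep - m) with hb
  set c := (ga + b * al) / (ep - a) with hc
  have hbe : de + b * m = ep * b := by
    rw [hb]; field_simp [sub_ne_zero.2 (Ne.symm hme)]; ring
  have hce : ga + b * al + c * a = ep * c := by
    rw [hc]; field_simp [sub_ne_zero.2 (Ne.symm hae)]; ring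
  have hgf : sv g (f + b • w + c • v) = ep • (f + b • w + c • v) := by
    rw [sv_add, sv_add, sv_smul, sv_smul, hf, hw, ha]
    calc ga • v + de • w + ep • f + b • (al • v + m • w) + c • a • v
        = (ga + b * al + c * a) • v + (de + b * m) • w + ep • f := by module
      _ = ep • (f + b • w + c • v) := by rw [hbe, hce]; module
  have hX : c + c ^ q + b * b ^ q = 0 := by
    rw [← fr.herm_big hF]
    by_contra hne0
    have h := sv_herm g (f + b • w + c • v) (f + b • w + c • v)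
    rw [hgf, herm_smul_left, herm_smul_right, ← mul_assoc, ← pow_succ'] at h
    have h1 : ep ^ (q + 1) = 1 := (mul_eq_right₀ hne0).1 h
    have h2 : (a ^ q) ^ (q + 1) = 1 := by
      have := congrArg (· ^ (q + 1)) hep
      simp only [mul_pow, one_pow, h1, one_mul] at this
      exact this
    rw [pow_succ, pow_q_q hF] at h2
    exact hne (q + 1) (by omega) (by omega) (by rw [pow_succ', h2])
  have fr' := fr.shift hF hX
  obtain ⟨w', hw'⟩ : ∃ w', w' = w - b ^ q • v := ⟨_, rfl⟩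
  obtain ⟨f', hf'⟩ : ∃ f', f' = f + b • w + c • v := ⟨_, rfl⟩
  rw [← hw', ← hf'] at fr'
  rw [← hf'] at hgf
  obtain ⟨-, al', m', ga', de', ep', hwd, -, hm', -⟩ := fr'.triangular hF g ha
  have hal : al' = 0 := by
    have := sv_herm g w' f'
    rw [hgf, hwd, fr'.wf, herm_smul_right, herm_add_left, herm_smul_left, herm_smul_left, fr'.vf,
      fr'.wf, mul_one, mul_zero, add_zero] at this
    refine (mul_eq_zero.1 this).resolve_left (pow_ne_zero q ?_)
    rintro rfl
    rw [zero_mul] at hep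
    exact zero_ne_one hep
  rw [hal, zero_smul, zero_add] at hwd
  have hmm : m' = m := mul_left_cancel₀ ha0 (hm'.trans hm.symm)
  rw [hmm] at hwd
  refine ⟨pt f' (fr'.f_ne hF) fr'.ff, fun h => ?_, fun N => ⟨fun hN => ?_, ?_⟩⟩
  · obtain ⟨l, hl⟩ := pt_eq_pt_iff.1 h
    have := fr'.fv hF
    rw [hl, herm_smul_left, fr'.vv, mul_zero] at this
    exact zero_ne_one this
  · obtain ⟨y, hy0, hy, rfl⟩ := exists_eq_pt N
    obtain ⟨l, hl⟩ := (smul_pt_eq_iff g hy0 hy).1 hN
    rw [pt_eq_pt_iff, pt_eq_pt_iff]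
    set x1 := hermForm 3 F q y f'
    set x2 := hermForm 3 F q y w'
    set x3 := hermForm 3 F q y v
    have e := fr'.expand hF y
    have h1 : (a * x1 - l * x1) • v + (m * x2 - l * x2) • w' + (ep * x3 - l * x3) • f' = 0 := by
      have h2 : sv g y = l • y := hl
      rw [e, sv_add, sv_add, sv_smul, sv_smul, sv_smul, ha, hwd, hgf] at h2
      linear_combination (norm := module) h2
    obtain ⟨k1, k2, k3⟩ := fr'.coord hF (a * x1 - l * x1) (m * x2 - l * x2) (ep * x3 - l * x3)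
    rw [h1, herm_zero_left] at k1 k2 k3
    rw [← sub_mul, eq_comm, mul_eq_zero, sub_eq_zero] at k1 k2 k3
    by_cases hx3 : x3 = 0
    · left
      exact ⟨_, fr'.eq_smul_of_perp hF hy hx3⟩
    right
    obtain rfl : ep = l := k3.resolve_right hx3
    have hx1 : x1 = 0 := k1.resolve_left hae
    have hx2 : x2 = 0 := k2.resolve_left hme
    refine ⟨x3, e.trans ?_⟩
    show x1 • v + x2 • w' + x3 • f' = x3 • f'
    rw [hx1, hx2, zero_smul, zero_smul, zero_add, zero_add]
  · rintro (rfl | rfl)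
    · exact (smul_pt_eq_iff g hv0 hvv).2 ⟨a, ha⟩
    · exact (smul_pt_eq_iff g (fr'.f_ne hF) fr'.ff).2 ⟨ep, hgf⟩

theorem even_false (hF : Fintype.card F = q ^ 2) (hq : 3 ≤ q) (hqe : Even q)
    (hbot : ∀ v : Fin 3 → F, v ≠ 0 → hermForm 3 F q v v = 0 → fixV H v = ⊥)
    (hfull : ∀ (v : Fin 3 → F) (hv0 : v ≠ 0), hermForm 3 F q v v = 0 → eigCard H v hv0 = q ^ 2 - 1) :
    False := by
  classical
  have hU : Nat.card Fˣ = q ^ 2 - 1 := by rw [Nat.card_units, Nat.card_eq_fintype_card, hF]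
  have hstab : ∀ (v : Fin 3 → F) (hv0 : v ≠ 0) (hvv : hermForm 3 F q v v = 0),
      ∃ M : Pt q F, M ≠ pt v hv0 hvv ∧ stabilizer ↥H (pt v hv0 hvv) = stabilizer ↥H M ∧
        ∀ N, stabilizer ↥H (pt v hv0 hvv) ≤ stabilizer ↥H N → N = pt v hv0 hvv ∨ N = M := by
    intro v hv0 hvv
    obtain ⟨u, hu⟩ := IsCyclic.exists_ofOrder_eq_natCard (α := Fˣ)
    obtain ⟨⟨g, hg⟩, hgu⟩ := exists_eig_eq (H := H) hv0 (hfull v hv0 hvv) hU.symm u
    have ha : sv g v = (u : F) • v := by rw [← hgu]; exact sv_eq_eigHom hv0 ⟨g, hg⟩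
    obtain ⟨M, hM1, hM2⟩ := exists_partner_point hF hq hv0 hvv ha
      (by rw [orderOf_units, hu, hU])
    have hgen : ∀ h ∈ stabilizer ↥H (pt v hv0 hvv), ∃ n : ℕ, (h : ↥(SU 3 F q)) = g ^ n := by
      intro h hh
      have hhS : (h : ↥(SU 3 F q)) ∈ lineStab H v := (mem_lineStab_iff hv0 hvv).2 ⟨h.2, hh⟩
      have hgen' : eigHom H v hv0 ⟨h, hhS⟩ ∈ Subgroup.zpowers u :=
        (Subgroup.eq_top_of_card_eq (Subgroup.zpowers u) (by rw [Nat.card_zpowers, hu])).symm ▸
          Subgroup.mem_top _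
      obtain ⟨n, hn⟩ := (isOfFinOrder_of_finite u).mem_powers_iff_mem_zpowers.2 hgen'
      refine ⟨n, ?_⟩
      have hker : (eigHom H v hv0).ker = ⊥ := by
        rw [ker_eigHom, hbot v hv0 hvv, Subgroup.bot_subgroupOf]
      have he : eigHom H v hv0 (⟨g, hg⟩ ^ n) = eigHom H v hv0 ⟨h, hhS⟩ := by
        rw [map_pow, hgu]; exact hn
      exact (congrArg Subtype.val ((MonoidHom.ker_eq_bot_iff _).1 hker he)).symm
    have hgH : (⟨g, hg.1⟩ : ↥H) ∈ stabilizer ↥H (pt v hv0 hvv) :=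
      ((mem_lineStab_iff hv0 hvv).1 hg).2
    have hle : ∀ N : Pt q F, g • N = N → stabilizer ↥H (pt v hv0 hvv) ≤ stabilizer ↥H N := by
      intro N hN h hh
      obtain ⟨n, hn⟩ := hgen h hh
      show (h : ↥(SU 3 F q)) • N = N
      rw [hn]
      clear hn
      induction n with
      | zero => rw [pow_zero, one_smul]
      | succ n ih => rw [pow_succ, mul_smul, hN, ih]
    refine ⟨M, hM1, ?_, fun N hN => (hM2 N).1 (hN hgH)⟩
    obtain ⟨y, hy0, hy, rfl⟩ := exists_eq_pt M
    refine Subgroup.eq_of_le_of_card_ge (hle _ ((hM2 _).2 (Or.inr rfl))) ?_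
    rw [← card_lineStab_eq_stabilizer hy0 hy, ← card_lineStab_eq_stabilizer hv0 hvv, card_lineStab hy0,
      card_lineStab hv0, hbot v hv0 hvv, hbot y hy0 hy, hfull v hv0 hvv, hfull y hy0 hy]
  have hall : ∀ L : Pt q F, ∃ M : Pt q F, M ≠ L ∧ stabilizer ↥H L = stabilizer ↥H M ∧
      ∀ N, stabilizer ↥H L ≤ stabilizer ↥H N → N = L ∨ N = M := by
    intro L
    obtain ⟨v, hv0, hvv, rfl⟩ := exists_eq_pt L
    exact hstab v hv0 hvv
  choose σ hσ1 hσ2 hσ3 using hall
  have hinv : ∀ L, σ (σ L) = L := fun L => by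
    rcases hσ3 L (σ (σ L)) (le_of_eq ((hσ2 L).trans (hσ2 (σ L)))) with h | h
    · exact h
    · exact absurd h (hσ1 (σ L))
  haveI := Fintype.ofFinite (Pt q F)
  let π : Equiv.Perm (Pt q F) := Function.Involutive.toPerm σ hinv
  have hπ : π ^ 2 = 1 := Equiv.ext fun L => hinv L
  have h2 := Equiv.Perm.two_dvd_card_support hπ
  have hsupp : π.support = Finset.univ :=
    Finset.eq_univ_iff_forall.2 fun L => Equiv.Perm.mem_support.2 (hσ1 L)
  rw [hsupp, Finset.card_univ, ← Nat.card_eq_fintype_card, card_Pt hF] at h2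
  obtain ⟨j, rfl⟩ := hqe
  have : 2 ∣ (j + j) ^ 3 := dvd_pow (Dvd.intro j (two_mul j)) (by norm_num)
  omega

end CfsgLib.MinIndexPSU3
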