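import Mathlib
import Cfsg.Agent.MinIndexPSU3.Chord
import Cfsg.Agent.Classical.Unitary.Center
import Cfsg.Agent.Classical.Unitary.Parabolic

/-!
Elements of a prime order larger than `q + 1` in `SU₃(q)` and their normalisers in a subgroup.
-/

set_option autoImplicit false

namespace CfsgLib.MinIndexPSU3

open Cfsg CfsgLib.Unitary
open scoped Matrix

variable {F : Type*} [Field F] [Fintype F] {q : ℕ}

/-- Every norm one vector is the middle of a frame. -/
theorem exists_frame_of_norm_one (hF : Fintype.card F = q ^ 2) {u : Fin 3 → F}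
    (hu : hermForm 3 F q u u = 1) : ∃ v f, Frame q v u f := by
  obtain ⟨c, hc⟩ := exists_norm_eq hF (a := (-1 : F)) (by rw [neg_pow_q hF, one_pow])
  set x : Fin 3 → F := Pi.single 0 1 + c • Pi.single 1 1 with hx
  have h01 : (0 : Fin 3) ≠ 1 := by decide
  have hxx : hermForm 3 F q x x = 0 := by
    simp [hx, herm_add_left, herm_add_right hF, herm_smul_left, herm_smul_right, herm_single_single hF,
      h01, Ne.symm h01]
    rw [← pow_succ, hc]; ring
  have hx0 : x ≠ 0 := fun h => by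
    have := congrFun h 0
    simp [hx, h01] at this
  obtain ⟨w, f, fr⟩ := exists_frame hF hx0 hxx
  obtain ⟨A, hA⟩ := exists_SU_map_orthonorm hF (k := 1) (f := fun _ => w) (f' := fun _ => u)
    (fun i j => by simp [Subsingleton.elim i j, fr.ww]) (fun i j => by simp [Subsingleton.elim i j, hu])
    (by norm_num)
  exact ⟨_, _, hA 0 ▸ fr.map A⟩

/-- The points orthogonal to the middle of a frame. -/
theorem Frame.exists_chord_eq {v w f : Fin 3 → F} (fr : Frame q v w f) (hF : Fintype.card F = q ^ 2)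
    {y : Fin 3 → F} (hy0 : y ≠ 0) (hy : hermForm 3 F q y y = 0) (hyw : hermForm 3 F q y w = 0) :
    ∃ o : Option {c : F // c + c ^ q = 0}, pt y hy0 hy =
      pt (chordVec v f o) (fr.chordVec_spec hF o).1 (fr.chordVec_spec hF o).2.1 := by
  rcases fr.eq_big hF hy with ⟨a, ha⟩ | ⟨a, b, c, hbc, ha, hb⟩
  · exact ⟨none, pt_eq_pt_iff.2 ⟨a, ha⟩⟩
  · rw [hb hyw, zero_mul, add_zero] at hbc
    rw [hb hyw, zero_smul, add_zero] at ha
    exact ⟨some ⟨c, hbc⟩, pt_eq_pt_iff.2 ⟨a, ha⟩⟩

variable {r : ℕ}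

/-- An element of prime order `r > q + 1`, `r` prime to `q² - 1`, has no eigenvector. -/
theorem no_eigvec (hF : Fintype.card F = q ^ 2) (p : ℕ) [Fact p.Prime] [CharP F p] (hr : r.Prime)
    (hrp : r ≠ p) (hrq : ¬ r ∣ q ^ 2 - 1) (hbig : q + 1 < r) {y : ↥(SU 3 F q)} (hy : orderOf y = r)
    {x : Fin 3 → F} (hx0 : x ≠ 0) {a : F} (ha : sv y x = a • x) : False := by
  haveI : Fact r.Prime := ⟨hr⟩
  have hfix : ∀ {z : Fin 3 → F} {b : F}, z ≠ 0 → sv y z = b • z → sv y z = z := by
    intro z b hz0 hz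
    have hk : ∀ k : ℕ, sv (y ^ k) z = b ^ k • z := fun k => by
      induction k with
      | zero => simp
      | succ k ih => rw [pow_succ, sv_mul, hz, sv_smul, ih, smul_smul, ← pow_succ']
    have h1 := hk r
    rw [← hy, pow_orderOf_eq_one, sv_one, hy] at h1
    have h2 : b ^ r = 1 := smul_left_injective F hz0 (show b ^ r • z = (1 : F) • z by rw [one_smul, ← h1])
    have hb0 : b ≠ 0 := by
      rintro rfl
      rw [zero_pow hr.ne_zero] at h2
      exact zero_ne_one h2
    have h3 : b ^ (q ^ 2 - 1) = 1 := hF ▸ FiniteField.pow_card_sub_one_eq_one b hb0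
    have hcop : Nat.Coprime r (q ^ 2 - 1) := (Nat.Prime.coprime_iff_not_dvd hr).2 hrq
    have hb1 : b = 1 := by
      have := pow_gcd_eq_one.2 ⟨h2, h3⟩
      rwa [hcop, pow_one] at this
    rw [hz, hb1, one_smul]
  have hiso : ∀ {z : Fin 3 → F}, z ≠ 0 → hermForm 3 F q z z = 0 → ∀ b : F, sv y z ≠ b • z := by
    intro z hz0 hzz b hb
    obtain ⟨w, f, fr⟩ := exists_frame hF hz0 hzz
    have h := orderOf_dvd_of_pow_eq_one (fr.pow_sq_eq_one hF p (hfix hz0 hb))
    rw [hy] at h
    exact hrp ((Nat.prime_dvd_prime_iff_eq hr Fact.out).1 (hr.dvd_of_dvd_pow h))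
  by_cases hxx : hermForm 3 F q x x = 0
  · exact hiso hx0 hxx a ha
  -- scale to norm one
  obtain ⟨l, hl⟩ := exists_norm_eq hF (a := (hermForm 3 F q x x)⁻¹)
    (by rw [inv_pow_q, herm_self_fixed hF])
  set u := l • x with hu
  have hl0 : l ≠ 0 := by
    rintro rfl
    rw [zero_pow (by omega)] at hl
    exact hxx (inv_eq_zero.1 hl.symm)
  have huu : hermForm 3 F q u u = 1 := by
    rw [hu, herm_smul_left, herm_smul_right, ← mul_assoc, ← pow_succ', hl, inv_mul_cancel₀ hxx]
  obtain ⟨v, f, fr⟩ := exists_frame_of_norm_one hF huu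
  have huy : sv y u = u := by rw [hu, sv_smul, hfix hx0 ha]
  have hperp : ∀ k : ℕ, hermForm 3 F q (sv (y ^ k) v) u = 0 := by
    intro k
    have hk : sv (y ^ k) u = u := by
      induction k with
      | zero => exact sv_one u
      | succ k ih => rw [pow_succ, sv_mul, huy, ih]
    rw [← hk, sv_herm, fr.vw]
  have hch : ∀ k : ℕ, ∃ o : Option {c : F // c + c ^ q = 0},
      (y ^ k) • pt v fr.v_ne fr.vv =
        pt (chordVec v f o) (fr.chordVec_spec hF o).1 (fr.chordVec_spec hF o).2.1 := by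
    intro k
    rw [smul_pt]
    exact fr.exists_chord_eq hF _ _ (hperp k)
  choose σ hσ using hch
  haveI := Fintype.ofFinite (Option {c : F // c + c ^ q = 0})
  obtain ⟨i, j, hij, h⟩ := Fintype.exists_ne_map_eq_of_card_lt (fun k : Fin r => σ k.1)
    (by rw [← Nat.card_eq_fintype_card, card_chord hF, Fintype.card_fin]; exact hbig)
  have key : ∀ i j : ℕ, i < j → j < r → σ i = σ j → False := by
    intro i j hlt hj he
    have h1 : (y ^ (j - i)) • pt v fr.v_ne fr.vv = pt v fr.v_ne fr.vv := by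
      apply MulAction.injective (y ^ i)
      show (y ^ i) • _ = (y ^ i) • _
      rw [← mul_smul, ← pow_add, Nat.add_sub_cancel' hlt.le, hσ j, hσ i]
      simp only [he]
    obtain ⟨m, hm⟩ := exists_pow_eq_self_of_coprime (x := y) (n := j - i)
      (by rw [hy]; exact ((Nat.Prime.coprime_iff_not_dvd hr).2 fun hd => by
        have := Nat.le_of_dvd (by omega) hd; omega).symm)
    have h2 : ∀ m : ℕ, ((y ^ (j - i)) ^ m) • pt v fr.v_ne fr.vv = pt v fr.v_ne fr.vv := by
      intro m
      induction m with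
      | zero => rw [pow_zero, one_smul]
      | succ m ih => rw [pow_succ, mul_smul, h1, ih]
    have h3 := h2 m
    rw [hm, smul_pt_eq_iff] at h3
    obtain ⟨b, hb⟩ := h3
    exact hiso fr.v_ne fr.vv b hb
  rcases Nat.lt_or_gt_of_ne (fun he => hij (Fin.ext he)) with hl' | hl'
  · exact key _ _ hl' j.2 h
  · exact key _ _ hl' i.2 h.symm

/-- The centraliser of an element without eigenvectors. -/
theorem prime_centralizer (hF : Fintype.card F = q ^ 2) (p : ℕ) [Fact p.Prime] [CharP F p]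
    {y : ↥(SU 3 F q)} (hno : ∀ (x : Fin 3 → F) (a : F), x ≠ 0 → sv y x ≠ a • x) {l : ℕ} (hl : l.Prime)
    {g : ↥(SU 3 F q)} (hg : orderOf g = l) (hc : Commute g y) :
    l ≠ p ∧ (l ∣ q ^ 2 - 1 → g ∈ Subgroup.center ↥(SU 3 F q)) := by
  haveI : Fact l.Prime := ⟨hl⟩
  have hpq : ¬ p ∣ q ^ 3 + 1 := by
    obtain ⟨p', e, hp', hch, he, hqe⟩ := exists_char hF
    obtain rfl : p' = p := CharP.eq F hch ‹CharP F p›
    intro h
    have h1 : p' ∣ q ^ 3 := hqe ▸ dvd_pow (dvd_pow_self p' he.ne') (by norm_num)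
    exact hp'.not_dvd_one ((Nat.dvd_add_right h1).1 h)
  constructor
  · rintro rfl
    have hR : IsPGroup l ↥(Subgroup.zpowers g) :=
      IsPGroup.of_card (n := 1) (by rw [Nat.card_zpowers, hg, pow_one])
    obtain ⟨L, hL⟩ := hR.nonempty_fixed_point_of_prime_not_dvd_card (Pt q F)
      (by rw [card_Pt hF]; exact hpq)
    have hgL : g • L = L := hL ⟨g, Subgroup.mem_zpowers g⟩
    have hyL : y • L = L := fixed_unique hF l (j := 1) (by rw [pow_one, ← hg, pow_orderOf_eq_one])
      (fun h => hl.ne_one (by rw [← hg, h, orderOf_one])) (by rw [← mul_smul, hc.eq, mul_smul, hgL]) hgL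
    obtain ⟨x, hx0, hx, rfl⟩ := exists_eq_pt L
    obtain ⟨a, ha⟩ := (smul_pt_eq_iff y hx0 hx).1 hyL
    exact hno x a hx0 ha
  intro hdvd
  -- an eigenvector of `g`
  have hcast : (l : F) ≠ 0 := by
    rw [Ne, CharP.cast_eq_zero_iff F p]
    intro h
    have hpl : p = l := (Nat.prime_dvd_prime_iff_eq Fact.out hl).1 h
    obtain ⟨p', e, hp', hch, he, hqe⟩ := exists_char hF
    obtain rfl : p' = p := CharP.eq F hch ‹CharP F p›
    have h1 : p' ∣ q ^ 2 := hqe ▸ dvd_pow (dvd_pow_self p' he.ne') (by norm_num)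
    have h2 : 1 ≤ q ^ 2 := Nat.one_le_pow _ _ (by have := two_le_q hF; omega)
    have := Nat.dvd_sub h1 (hpl ▸ hdvd)
    rw [show q ^ 2 - (q ^ 2 - 1) = 1 by omega] at this
    exact hp'.not_dvd_one this
  obtain ⟨u, hu⟩ : ∃ u : Fˣ, orderOf u = l := by
    refine exists_prime_orderOf_dvd_card' (G := Fˣ) l ?_
    rwa [Nat.card_units, Nat.card_eq_fintype_card, hF]
  obtain ⟨z, hz⟩ : ∃ z : F, IsPrimitiveRoot z l := ⟨u, hu ▸ (IsPrimitiveRoot.coe_units_iff.2 (IsPrimitiveRoot.orderOf u))⟩
  have hz0 : z ≠ 0 := hz.ne_zero hl.ne_zero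
  obtain ⟨x, b, hx0, hb⟩ : ∃ (x : Fin 3 → F) (b : F), x ≠ 0 ∧ sv g x = b • x := by
    by_contra hne
    push Not at hne
    set x₀ : Fin 3 → F := Pi.single 0 1
    let E : ℕ → (Fin 3 → F) := fun i => ∑ k ∈ Finset.range l, (z ^ (i * k)) • sv (g ^ k) x₀
    have hlin : ∀ (s : Finset ℕ) (c : ℕ → Fin 3 → F), sv g (∑ k ∈ s, c k) = ∑ k ∈ s, sv g (c k) :=
      fun s c => Matrix.mulVec_sum _ _ _
    have hE : ∀ i, sv g (E i) = (z ^ i)⁻¹ • E i := by
      intro i
      have h1 : (z ^ i) • sv g (E i) = E i := by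
        simp only [E]
        rw [hlin, Finset.smul_sum]
        simp only [sv_smul, ← sv_mul, ← pow_succ', smul_smul, ← pow_add]
        simp only [show ∀ k, i + i * k = i * (k + 1) from fun k => by ring]
        have e1 := Finset.sum_range_succ' (fun k => (z ^ (i * k)) • sv (g ^ k) x₀) l
        have e2 := Finset.sum_range_succ (fun k => (z ^ (i * k)) • sv (g ^ k) x₀) l
        rw [e1] at e2
        have hgl : g ^ l = 1 := hg ▸ pow_orderOf_eq_one g
        have hzl : z ^ (i * l) = 1 := by rw [mul_comm, pow_mul, hz.pow_eq_one, one_pow]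
        rw [Nat.mul_zero, pow_zero, pow_zero, hgl, hzl] at e2
        exact add_right_cancel e2
      rw [← h1, smul_smul, inv_mul_cancel₀ (pow_ne_zero i hz0), one_smul, h1]
    have h0 : ∀ i, E i = 0 := fun i => by
      by_contra h
      exact hne _ _ h (hE i)
    have hsum : ∑ i ∈ Finset.range l, E i = (l : F) • x₀ := by
      simp only [E]
      rw [Finset.sum_comm, Finset.sum_eq_single 0]
      · simp [Nat.cast_smul_eq_nsmul]
      · intro k hk hk0
        rw [← Finset.sum_smul]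
        have h1 : z ^ k ≠ 1 := hz.pow_ne_one_of_pos_of_lt hk0 (Finset.mem_range.1 hk)
        have h2 : ∑ i ∈ Finset.range l, z ^ (i * k) = 0 := by
          simp only [mul_comm _ k, pow_mul]
          rw [geom_sum_eq h1, ← pow_mul, mul_comm, pow_mul, hz.pow_eq_one, one_pow, sub_self, zero_div]
        rw [h2, zero_smul]
      · intro h
        exact absurd (Finset.mem_range.2 hl.pos) h
    simp only [h0, Finset.sum_const_zero] at hsum
    have := congrFun hsum 0
    simp [x₀] at this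
    exact hcast this.symm
  let E : Submodule F (Fin 3 → F) :=
    { carrier := {d | sv g d = b • d}
      zero_mem' := by show sv g 0 = _; rw [smul_zero]; exact Matrix.mulVec_zero _
      add_mem' := fun {d e} hd he => by
        show sv g (d + e) = _
        rw [sv_add, hd, he, smul_add]
      smul_mem' := fun c d hd => by
        show sv g (c • d) = _
        rw [sv_smul, hd, smul_comm] }
  have hinv : ∀ d ∈ E, sv y d ∈ E := fun d hd => by
    show sv g (sv y d) = b • sv y d
    rw [← sv_mul, hc.eq, sv_mul, hd, sv_smul]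
  have hinv' : ∀ d ∈ E, sv y⁻¹ d ∈ E := fun d hd => by
    show sv g (sv y⁻¹ d) = b • sv y⁻¹ d
    rw [← sv_mul, hc.inv_right.eq, sv_mul, hd, sv_smul]
  have hxE : x ∈ E := hb
  have one_dim : ∀ W : Submodule F (Fin 3 → F), Module.finrank F W = 1 → (∀ d ∈ W, sv y d ∈ W) → False := by
    intro W hW hWinv
    obtain ⟨⟨e, he⟩, he0, hgen⟩ := (finrank_eq_one_iff' (K := F) (V := ↥W)).1 hW
    obtain ⟨c, hc'⟩ := hgen ⟨sv y e, hWinv e he⟩
    exact hno e c (fun h => he0 (Subtype.ext h)) (congrArg Subtype.val hc').symm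
  have hpos : 0 < Module.finrank F E := Module.finrank_pos_iff_exists_ne_zero.2
    ⟨⟨x, hxE⟩, fun h => hx0 (congrArg Subtype.val h)⟩
  have hle : Module.finrank F E ≤ 3 := by
    have := Submodule.finrank_le E
    simpa using this
  rcases (show Module.finrank F E = 1 ∨ Module.finrank F E = 2 ∨ Module.finrank F E = 3 by omega) with
    h | h | h
  · exact (one_dim E h hinv).elim
  · refine (one_dim (perp q E) ?_ fun d hd e he => ?_).elim
    · have := finrank_perp_add hF E
      omega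
    · rw [← sv_sv_inv y e, sv_herm]
      exact hd _ (hinv' e he)
  · have htop : E = ⊤ := Submodule.eq_top_of_finrank_eq (by rw [h, Module.finrank_fin_fun])
    rw [Subgroup.mem_center_iff]
    intro k
    refine sv_ext fun d => ?_
    have h1 : ∀ d, sv g d = b • d := fun d => (htop ▸ Submodule.mem_top : d ∈ E)
    rw [sv_mul, sv_mul, h1, h1, sv_smul]

/-- Sylow's congruence for a prime dividing the order exactly once. -/
theorem exists_sylow_data (H : Subgroup ↥(SU 3 F q)) (hr : r.Prime) (h1 : r ∣ Nat.card H)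
    (h2 : ¬ r ^ 2 ∣ Nat.card H) :
    ∃ (y : ↥H) (R : Sylow r ↥H) (c e : ℕ), orderOf y = r ∧ (R : Subgroup ↥H) = Subgroup.zpowers y ∧
      c = Nat.card (Subgroup.centralizer ({y} : Set ↥H)) ∧ r ∣ c ∧ e ∣ r - 1 ∧
      Nat.card (Subgroup.normalizer ((R : Subgroup ↥H) : Set ↥H)) = c * e ∧
      c * e ∣ Nat.card H ∧ (Nat.card H / (c * e)) % r = 1 := by
  haveI : Fact r.Prime := ⟨hr⟩
  obtain ⟨R⟩ : Nonempty (Sylow r ↥H) := inferInstance
  have hR : Nat.card (R : Subgroup ↥H) = r := by
    obtain ⟨n, hn⟩ := R.isPGroup'.exists_card_eq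
    have hd1 : r ∣ r ^ n := hn ▸ (by simpa using R.pow_dvd_card_of_pow_dvd_card (n := 1) (by simpa using h1))
    rcases n with _ | _ | n
    · exact absurd (by simpa using hd1) hr.ne_one
    · rw [hn]; simp
    · exact absurd ((pow_dvd_pow r (by omega : 2 ≤ n + 2)).trans (hn ▸ Subgroup.card_subgroup_dvd_card _)) h2
  obtain ⟨⟨y, hyR⟩, hy⟩ := exists_prime_orderOf_dvd_card' (G := ↥(R : Subgroup ↥H)) r (by rw [hR])
  have hy' : orderOf y = r := hy ▸ Subgroup.orderOf_coe (⟨y, hyR⟩ : ↥(R : Subgroup ↥H))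
  have hRy : (R : Subgroup ↥H) = Subgroup.zpowers y :=
    (Subgroup.eq_of_le_of_card_ge (Subgroup.zpowers_le.2 hyR) (by rw [Nat.card_zpowers, hy', hR])).symm
  set C := Subgroup.centralizer ({y} : Set ↥H) with hC
  set N := Subgroup.normalizer ((R : Subgroup ↥H) : Set ↥H) with hN
  have hCR : Subgroup.centralizer ((R : Subgroup ↥H) : Set ↥H) = C := by
    rw [hRy, hC, Subgroup.zpowers_eq_closure, Subgroup.centralizer_closure]
  have hCN : C ≤ N := hCR ▸ Subgroup.centralizer_le_normalizer _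
  have hidx : (C.subgroupOf N).index ∣ r - 1 := by
    rw [show C.subgroupOf N = (Subgroup.normalizerMonoidHom (R : Subgroup ↥H)).ker by
      rw [Subgroup.normalizerMonoidHom_ker, hCR], Subgroup.index_ker]
    refine (Subgroup.card_subgroup_dvd_card _).trans ?_
    haveI : IsCyclic ↥(R : Subgroup ↥H) := isCyclic_of_prime_card hR
    rw [IsCyclic.card_mulAut, hR, Nat.totient_prime hr]
  have hNeq : Nat.card N = Nat.card C * (C.subgroupOf N).index := by
    rw [← (C.subgroupOf N).card_mul_index, Nat.card_congr (Subgroup.subgroupOfEquivOfLe hCN).toEquiv]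
  have hmod := card_sylow_modEq_one r ↥H
  rw [R.card_eq_index_normalizer, show Subgroup.normalizer (R : Set ↥H) = N from rfl] at hmod
  refine ⟨y, R, Nat.card C, (C.subgroupOf N).index, hy', hRy, rfl, ?_, hidx, hNeq, ?_, ?_⟩
  · rw [← hy']
    exact Subgroup.orderOf_dvd_natCard _ (Subgroup.mem_centralizer_iff.2 (by simp))
  · rw [← hNeq]; exact Subgroup.card_subgroup_dvd_card N
  · rw [← hNeq, ← N.card_mul_index, Nat.mul_div_cancel_left _ Nat.card_pos]
    have : (1 : ℕ) % r = 1 := Nat.one_mod_eq_one.2 hr.ne_one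
    rw [← this]
    exact hmod

end CfsgLib.MinIndexPSU3
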