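import Mathlib
import Cfsg.Agent.MinIndexPSU3.Prime
import Cfsg.Agent.MinIndexPSU3.Local

/-!
The exceptional orders for a subgroup of small index of `SU₃(q)`, `q ∈ {3, 4, 8, 9, 11}`.
-/

set_option autoImplicit false

namespace CfsgLib.MinIndexPSU3

open Cfsg CfsgLib.Unitary
open scoped Matrix

variable {F : Type*} [Field F] [Fintype F] {q : ℕ}

/-- The Sylow data of a prime `r` and the primes of the centraliser. -/
theorem sylow_facts (hF : Fintype.card F = q ^ 2) (p : ℕ) [Fact p.Prime] [CharP F p]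
    (H : Subgroup ↥(SU 3 F q)) {r : ℕ} (hr : r.Prime) (hrp : r ≠ p) (hrq : ¬ r ∣ q ^ 2 - 1)
    (hbig : q + 1 < r) (h1 : r ∣ Nat.card H) (h2 : ¬ r ^ 2 ∣ Nat.card H) :
    ∃ (y : ↥H) (R : Sylow r ↥H) (c e : ℕ), orderOf y = r ∧ (R : Subgroup ↥H) = Subgroup.zpowers y ∧
      c = Nat.card (Subgroup.centralizer ({y} : Set ↥H)) ∧ r ∣ c ∧ e ∣ r - 1 ∧
      Nat.card (Subgroup.normalizer ((R : Subgroup ↥H) : Set ↥H)) = c * e ∧
      c * e ∣ Nat.card H ∧ (Nat.card H / (c * e)) % r = 1 ∧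
      (∀ l : ℕ, l.Prime → l ∣ c → l ≠ p ∧ (l ∣ q ^ 2 - 1 → l ∣ Nat.gcd 3 (q + 1))) ∧
      (∀ (x : Fin 3 → F) (a : F), x ≠ 0 → sv (y : ↥(SU 3 F q)) x ≠ a • x) := by
  obtain ⟨y, R, c, e, hy, hR, hc, hrc, he, hN, hd, hm⟩ := exists_sylow_data H hr h1 h2
  have hy' : orderOf (y : ↥(SU 3 F q)) = r := by rw [Subgroup.orderOf_coe, hy]
  have hno : ∀ (x : Fin 3 → F) (a : F), x ≠ 0 → sv (y : ↥(SU 3 F q)) x ≠ a • x :=
    fun x a hx ha => no_eigvec hF p hr hrp hrq hbig hy' hx ha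
  refine ⟨y, R, c, e, hy, hR, hc, hrc, he, hN, hd, hm, fun l hl hlc => ?_, hno⟩
  haveI : Fact l.Prime := ⟨hl⟩
  obtain ⟨g, hg⟩ := exists_prime_orderOf_dvd_card' (G := ↥(Subgroup.centralizer ({y} : Set ↥H))) l
    (hc ▸ hlc)
  have hg' : orderOf ((g : ↥H) : ↥(SU 3 F q)) = l := by rw [Subgroup.orderOf_coe, Subgroup.orderOf_coe, hg]
  have hcomm : Commute ((g : ↥H) : ↥(SU 3 F q)) (y : ↥(SU 3 F q)) :=
    congrArg Subtype.val (Subgroup.mem_centralizer_iff.1 g.2 y rfl).symm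
  obtain ⟨ha, hb⟩ := prime_centralizer hF p hno hl hg' hcomm
  refine ⟨ha, fun hlq => ?_⟩
  have h := Subgroup.orderOf_dvd_natCard _ (hb hlq)
  rwa [hg', card_center_SU hF (by norm_num)] at h

theorem coprime_of_forall {c m : ℕ} (h : ∀ l : ℕ, l.Prime → l ∣ c → ¬ l ∣ m) : Nat.Coprime c m := by
  by_contra hn
  obtain ⟨l, hl, hlc, hlm⟩ := Nat.Prime.not_coprime_iff_dvd.1 hn
  exact h l hl hlc hlm

theorem prime_cases {l : ℕ} (hl : l.Prime) {a b : ℕ} (ha : a.Prime) (hb : b.Prime) (i j : ℕ)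
    (h : l ∣ a ^ i * b ^ j) : l = a ∨ l = b := by
  rcases hl.dvd_mul.1 h with h | h
  · exact Or.inl ((Nat.prime_dvd_prime_iff_eq hl ha).1 (hl.dvd_of_dvd_pow h))
  · exact Or.inr ((Nat.prime_dvd_prime_iff_eq hl hb).1 (hl.dvd_of_dvd_pow h))

theorem case_three (hF : Fintype.card F = 3 ^ 2) [CharP F 3] (H : Subgroup ↥(SU 3 F 3))
    (hH : Nat.card H = 224) : False := by
  haveI : Fact (Nat.Prime 3) := ⟨Nat.prime_three⟩
  obtain ⟨y, R, c, e, -, -, -, hrc, he, -, hd, hm, hprimes, -⟩ :=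
    sylow_facts hF 3 H (r := 7) (by norm_num) (by norm_num) (by norm_num) (by norm_num)
      (by rw [hH]; norm_num) (by rw [hH]; norm_num)
  rw [hH] at hd hm
  have hc7 : c ∣ 7 := by
    refine (coprime_of_forall fun l hl hlc h32 => ?_).dvd_of_dvd_mul_left
      (show c ∣ 32 * 7 from (dvd_mul_right c e).trans hd)
    obtain rfl := (Nat.prime_dvd_prime_iff_eq hl Nat.prime_two).1
      (hl.dvd_of_dvd_pow (show l ∣ 2 ^ 5 from h32))
    exact absurd ((hprimes 2 hl hlc).2 (by norm_num)) (by decide)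
  obtain rfl : c = 7 := Nat.dvd_antisymm hc7 hrc
  have key : ∀ e ∈ Nat.divisors 6, ¬ (224 / (7 * e) % 7 = 1) := by decide +kernel
  exact key e (Nat.mem_divisors.2 ⟨he, by norm_num⟩) hm

theorem case_four (hF : Fintype.card F = 4 ^ 2) [CharP F 2] (H : Subgroup ↥(SU 3 F 4)) {P : ℕ}
    (hP : P = 4 ∨ P = 8) (hH : Nat.card H = 65 * (P * 5)) : False := by
  haveI : Fact (Nat.Prime 2) := ⟨Nat.prime_two⟩
  obtain ⟨y, R, c, e, -, -, -, hrc, he, -, hd, hm, hprimes, -⟩ :=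
    sylow_facts hF 2 H (r := 13) (by norm_num) (by norm_num) (by norm_num) (by norm_num)
      (by rw [hH]; exact dvd_mul_of_dvd_left (by norm_num) _)
      (by rw [hH]; rcases hP with rfl | rfl <;> norm_num)
  rw [hH] at hd hm
  have hc13 : c ∣ 13 := by
    refine (coprime_of_forall fun l hl hlc h => ?_).dvd_of_dvd_mul_left
      (show c ∣ (2 ^ 3 * 5 ^ 2) * 13 from ((dvd_mul_right c e).trans hd).trans
        (by rcases hP with rfl | rfl <;> norm_num))
    rcases prime_cases hl Nat.prime_two (by norm_num : Nat.Prime 5) 3 2 h with rfl | rfl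
    · exact (hprimes 2 hl hlc).1 rfl
    · exact absurd ((hprimes 5 hl hlc).2 (by norm_num)) (by decide)
  obtain rfl : c = 13 := Nat.dvd_antisymm hc13 hrc
  have key : ∀ e ∈ Nat.divisors 12, ∀ P ∈ ({4, 8} : Finset ℕ),
      ¬ (65 * (P * 5) / (13 * e) % 13 = 1 ∧ 13 * e ∣ 65 * (P * 5)) := by decide +kernel
  exact key e (Nat.mem_divisors.2 ⟨he, by norm_num⟩) P (by simpa using hP) ⟨hm, hd⟩

theorem nine_numeric : ∀ e ∈ Nat.divisors 72, ∀ k < 7, ∀ t ∈ Nat.divisors 20,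
    80 ≤ 3 ^ k * t → ¬ (730 * (3 ^ k * t) / (73 * e) % 73 = 1 ∧ 73 * e ∣ 730 * (3 ^ k * t)) := by
  decide +kernel

theorem case_nine (hF : Fintype.card F = 9 ^ 2) [CharP F 3] (H : Subgroup ↥(SU 3 F 9)) {k t : ℕ}
    (hk : k < 7) (ht : t ∣ 20) (h80 : 80 ≤ 3 ^ k * t) (hH : Nat.card H = 730 * (3 ^ k * t)) : False := by
  haveI : Fact (Nat.Prime 3) := ⟨Nat.prime_three⟩
  have hbig : 730 * (3 ^ k * t) ∣ (2 ^ 3 * 5 ^ 2 * 3 ^ 6) * 73 := by
    refine (mul_dvd_mul_left 730 (mul_dvd_mul (pow_dvd_pow 3 (by omega : k ≤ 6)) ht)).trans ?_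
    norm_num
  obtain ⟨y, R, c, e, -, -, -, hrc, he, -, hd, hm, hprimes, -⟩ :=
    sylow_facts hF 3 H (r := 73) (by norm_num) (by norm_num) (by norm_num) (by norm_num)
      (by rw [hH]; exact dvd_mul_of_dvd_left (by norm_num) _)
      (fun h => absurd ((hH ▸ h).trans hbig) (by norm_num))
  rw [hH] at hd hm
  have hc73 : c ∣ 73 := by
    refine (coprime_of_forall fun l hl hlc h => ?_).dvd_of_dvd_mul_left
      (((dvd_mul_right c e).trans hd).trans hbig)
    rcases hl.dvd_mul.1 h with h | h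
    · rcases prime_cases hl Nat.prime_two (by norm_num : Nat.Prime 5) 3 2 h with rfl | rfl
      · exact absurd ((hprimes 2 hl hlc).2 (by norm_num)) (by decide)
      · exact absurd ((hprimes 5 hl hlc).2 (by norm_num)) (by decide)
    · exact (hprimes l hl hlc).1 ((Nat.prime_dvd_prime_iff_eq hl Nat.prime_three).1 (hl.dvd_of_dvd_pow h))
  obtain rfl : c = 73 := Nat.dvd_antisymm hc73 hrc
  exact nine_numeric e (Nat.mem_divisors.2 ⟨he, by norm_num⟩) k hk t
    (Nat.mem_divisors.2 ⟨ht, by norm_num⟩) h80 ⟨hm, hd⟩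

/-- An involution in characteristic two fixes every vector orthogonal to an isotropic one. -/
theorem involution_root (hF : Fintype.card F = q ^ 2) [CharP F 2] (H : Subgroup ↥(SU 3 F q))
    {g : ↥(SU 3 F q)} (hg : g ∈ H) (hg1 : g ≠ 1) (hg2 : g * g = 1) :
    ∃ v : Fin 3 → F, v ≠ 0 ∧ g ∈ rootV H v := by
  haveI : Fact (Nat.Prime 2) := ⟨Nat.prime_two⟩
  have hord : orderOf g = 2 := orderOf_eq_prime (by rw [pow_two, hg2]) hg1
  have hR : IsPGroup 2 ↥(Subgroup.zpowers g) :=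
    IsPGroup.of_card (n := 1) (by rw [Nat.card_zpowers, hord, pow_one])
  obtain ⟨L, hL⟩ := hR.nonempty_fixed_point_of_prime_not_dvd_card (Pt q F) (by
    rw [card_Pt hF]
    obtain ⟨p', e, hp', hch, he, hqe⟩ := exists_char hF
    obtain rfl : p' = 2 := CharP.eq F hch ‹CharP F 2›
    intro h
    have h1 : 2 ∣ q ^ 3 := hqe ▸ dvd_pow (dvd_pow_self 2 he.ne') (by norm_num)
    omega)
  have hgL : g • L = L := hL ⟨g, Subgroup.mem_zpowers g⟩
  obtain ⟨v, hv0, hvv, rfl⟩ := exists_eq_pt L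
  obtain ⟨a, ha⟩ := (smul_pt_eq_iff g hv0 hvv).1 hgL
  have hv : sv g v = v := sv_eq_self_of_pow 2 (j := 1) (by rw [pow_one, pow_two, hg2]) hv0 ha
  obtain ⟨w, f, fr⟩ := exists_frame hF hv0 hvv
  refine ⟨v, hv0, (fr.mem_rootV_iff hF).2 ⟨⟨hg, hv⟩, ?_⟩⟩
  obtain ⟨-, hc⟩ := fr.coord_mul hF hv hv
  rw [hg2, ← two_mul, show (2 : F) = 0 from CharP.cast_eq_zero F 2, zero_mul, zero_sub] at hc
  simp only [cCoord, sv_one, fr.ff] at hc
  rcases mul_eq_zero.1 (show bCoord q w f g ^ q * bCoord q w f g = 0 by linear_combination hc) with h' | h'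
  · exact eq_zero_of_pow_eq_zero h'
  · exact h'

theorem case_eight (hF : Fintype.card F = 8 ^ 2) [CharP F 2] (H : Subgroup ↥(SU 3 F 8))
    (hH : Nat.card H = 513 * 72) : False := by
  haveI : Fact (Nat.Prime 2) := ⟨Nat.prime_two⟩
  obtain ⟨y, R, c, e, hy, hR, hc, hrc, he, hN, hd, hm, hprimes, hno⟩ :=
    sylow_facts hF 2 H (r := 19) (by norm_num) (by norm_num) (by norm_num) (by norm_num)
      (by rw [hH]; norm_num) (by rw [hH]; norm_num)
  rw [hH] at hd hm
  have hc' : c ∣ 4617 := by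
    refine (coprime_of_forall fun l hl hlc h8 => ?_).dvd_of_dvd_mul_left
      (show c ∣ 8 * 4617 from (dvd_mul_right c e).trans hd)
    obtain rfl := (Nat.prime_dvd_prime_iff_eq hl Nat.prime_two).1
      (hl.dvd_of_dvd_pow (show l ∣ 2 ^ 3 from h8))
    exact (hprimes 2 hl hlc).1 rfl
  have key : ∀ c ∈ Nat.divisors 4617, ∀ e ∈ Nat.divisors 18,
      19 ∣ c → 513 * 72 / (c * e) % 19 = 1 → c * e ∣ 513 * 72 → e % 2 = 0 := by decide +kernel
  have he2 := key c (Nat.mem_divisors.2 ⟨hc', by norm_num⟩) e (Nat.mem_divisors.2 ⟨he, by norm_num⟩)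
    hrc hm hd
  have hcodd : ¬ 2 ∣ c := fun h => (hprimes 2 Nat.prime_two h).1 rfl
  -- an involution inverting `y`
  obtain ⟨⟨τ, hτN⟩, hτ⟩ := exists_prime_orderOf_dvd_card'
    (G := ↥(Subgroup.normalizer ((R : Subgroup ↥H) : Set ↥H))) 2
    (by rw [hN]; exact dvd_mul_of_dvd_right (Nat.dvd_of_mod_eq_zero he2) c)
  have hτo : orderOf τ = 2 := hτ ▸ Subgroup.orderOf_coe (⟨τ, hτN⟩ :
    ↥(Subgroup.normalizer ((R : Subgroup ↥H) : Set ↥H)))
  have hττ : τ * τ = 1 := by rw [← pow_two, ← hτo, pow_orderOf_eq_one]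
  have hτi : τ⁻¹ = τ := inv_eq_of_mul_eq_one_right hττ
  have hmem : τ * y * τ⁻¹ ∈ Subgroup.zpowers y := by
    rw [← hR]
    exact (Subgroup.mem_normalizer_iff.1 hτN y).1 (hR ▸ Subgroup.mem_zpowers y)
  obtain ⟨k, hk⟩ := Subgroup.mem_zpowers_iff.1 hmem
  rw [hτi] at hk
  have hkk : y ^ (k * k) = y := by
    have h1 : (τ * y * τ) ^ k = τ * y ^ k * τ := by
      have := conj_zpow (i := k) (a := τ) (b := y)
      rwa [hτi] at this
    calc y ^ (k * k) = (y ^ k) ^ k := by rw [zpow_mul]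
      _ = τ * y ^ k * τ := by rw [hk]; exact h1.trans (by rw [hk])
      _ = (τ * τ) * y * (τ * τ) := by rw [hk]; group
      _ = y := by rw [hττ, one_mul, mul_one]
  have hdiv : (19 : ℤ) ∣ (k - 1) * (k + 1) := by
    have h1 : y ^ (k * k - 1) = 1 := by rw [zpow_sub, hkk, zpow_one, mul_inv_cancel]
    have := orderOf_dvd_iff_zpow_eq_one.2 h1
    rw [hy] at this
    rwa [show (k - 1) * (k + 1) = k * k - 1 by ring]
  have hinv : τ * y * τ = y⁻¹ := by
    rcases (Nat.prime_iff_prime_int.1 (by norm_num : Nat.Prime 19)).dvd_mul.1 hdiv with h | h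
    · exfalso
      have hfix : τ * y * τ = y := by
        have : y ^ (k - 1) = 1 := orderOf_dvd_iff_zpow_eq_one.1 (by rw [hy]; exact h)
        rw [← hk, show k = k - 1 + 1 by ring, zpow_add, this, zpow_one, one_mul]
      refine hcodd (hc ▸ hτo ▸ Subgroup.orderOf_dvd_natCard _ (Subgroup.mem_centralizer_iff.2 ?_))
      intro z hz
      rw [Set.mem_singleton_iff] at hz
      subst z
      calc y * τ = τ * y * τ * τ := by rw [hfix]
        _ = τ * y := by rw [mul_assoc _ τ τ, hττ, mul_one]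
    · have : y ^ (k + 1) = 1 := orderOf_dvd_iff_zpow_eq_one.1 (by rw [hy]; exact h)
      rw [zpow_add, zpow_one] at this
      rw [← hk]
      exact eq_inv_of_mul_eq_one_left this
  -- two transvections with product `y`
  have hσ : (τ * y) * (τ * y) = 1 := by rw [← mul_assoc, hinv, inv_mul_cancel]
  have hσ1 : τ * y ≠ 1 := by
    intro h
    have : τ = y⁻¹ := eq_inv_of_mul_eq_one_left h
    rw [this, orderOf_inv, hy] at hτo
    norm_num at hτo
  have hτ1 : τ ≠ 1 := fun h => by rw [h, orderOf_one] at hτo; norm_num at hτo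
  obtain ⟨v₁, -, hr1⟩ := involution_root hF H τ.2 (fun h => hτ1 (Subtype.ext h))
    (congrArg Subtype.val hττ)
  obtain ⟨v₂, -, hr2⟩ := involution_root hF H (τ * y).2 (fun h => hσ1 (Subtype.ext h))
    (congrArg Subtype.val hσ)
  obtain ⟨d, hd0, hd1, hd2⟩ : ∃ d : Fin 3 → F, d ≠ 0 ∧ hermForm 3 F 8 d v₁ = 0 ∧ hermForm 3 F 8 d v₂ = 0 := by
    classical
    set W := Submodule.span F (Set.range ![v₁, v₂]) with hW
    have hW2 : Module.finrank F W ≤ 2 := (finrank_range_le_card ![v₁, v₂]).trans (by simp)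
    have hadd := finrank_perp_add hF W
    obtain ⟨⟨d, hd⟩, hd0⟩ := Module.finrank_pos_iff_exists_ne_zero.1
      (show 0 < Module.finrank F ↥(perp 8 W) by omega)
    exact ⟨d, fun h => hd0 (Subtype.ext h), hd v₁ (Submodule.subset_span ⟨0, rfl⟩),
      hd v₂ (Submodule.subset_span ⟨1, rfl⟩)⟩
  have h2 := hr2.2 d hd2
  have h1 := hr1.2 d hd1
  refine hno d 1 hd0 ?_
  have h2' : sv (τ : ↥(SU 3 F 8)) (sv (y : ↥(SU 3 F 8)) d) = d := by
    rw [← sv_mul]; exact h2
  rw [one_smul]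
  conv_rhs => rw [← h1]
  have := congrArg (sv ((τ : ↥H) : ↥(SU 3 F 8))) h2'
  rw [← sv_mul, show (τ : ↥(SU 3 F 8)) * τ = 1 from congrArg Subtype.val hττ, sv_one] at this
  exact this

theorem case_eleven (hF : Fintype.card F = 11 ^ 2) [CharP F 11] (H : Subgroup ↥(SU 3 F 11))
    (hH : Nat.card H = 1332 * 330) (hZ : Subgroup.center ↥(SU 3 F 11) ≤ H)
    (hst : ∀ L : Pt 11 F, Nat.card (MulAction.stabilizer ↥H L) = 330) : False := by
  haveI : Fact (Nat.Prime 11) := ⟨by norm_num⟩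
  haveI : Fact (Nat.Prime 37) := ⟨by norm_num⟩
  obtain ⟨y, R, c, e, hy, hR, hc, hrc, he, hN, hd, hm, hprimes, -⟩ :=
    sylow_facts hF 11 H (r := 37) (by norm_num) (by norm_num) (by norm_num) (by norm_num)
      (by rw [hH]; norm_num) (by rw [hH]; norm_num)
  rw [hH] at hd hm
  have hc' : c ∣ 999 := by
    refine (coprime_of_forall fun l hl hlc h => ?_).dvd_of_dvd_mul_left
      (show c ∣ (2 ^ 3 * 5 ^ 1 * 11) * 999 from (dvd_mul_right c e).trans (hd.trans (by norm_num)))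
    rcases hl.dvd_mul.1 h with h | h
    · rcases prime_cases hl Nat.prime_two (by norm_num : Nat.Prime 5) 3 1 h with rfl | rfl
      · exact absurd ((hprimes 2 hl hlc).2 (by norm_num)) (by decide)
      · exact absurd ((hprimes 5 hl hlc).2 (by norm_num)) (by decide)
    · exact (hprimes l hl hlc).1 ((Nat.prime_dvd_prime_iff_eq hl (by norm_num)).1 h)
  have h3c : 3 ∣ c := by
    have h3 : Nat.card (Subgroup.center ↥(SU 3 F 11)) = 3 :=
      (card_center_SU hF (by norm_num)).trans (by norm_num)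
    rw [hc]
    refine ((dvd_of_eq h3.symm).trans (dvd_of_eq
      (Nat.card_congr (Subgroup.subgroupOfEquivOfLe hZ).toEquiv).symm)).trans
      (Subgroup.card_dvd_of_le fun z hz => Subgroup.mem_centralizer_iff.2 fun x hx => ?_)
    exact Subtype.ext (Subgroup.mem_center_iff.1 hz x.1)
  have key : ∀ c ∈ Nat.divisors 999, ∀ e ∈ Nat.divisors 36,
      3 ∣ c → 37 ∣ c → 1332 * 330 / (c * e) % 37 = 1 → c * e ∣ 1332 * 330 → e = 1 := by decide +kernel
  obtain rfl := key c (Nat.mem_divisors.2 ⟨hc', by norm_num⟩) e (Nat.mem_divisors.2 ⟨he, by norm_num⟩)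
    h3c hrc hm hd
  -- Burnside's transfer
  have hcent : Subgroup.normalizer ((R : Subgroup ↥H) : Set ↥H) ≤
      Subgroup.centralizer ((R : Subgroup ↥H) : Set ↥H) := by
    refine (Subgroup.eq_of_le_of_card_ge (Subgroup.centralizer_le_normalizer _) ?_).ge
    rw [hN, mul_one, hc, hR, Subgroup.zpowers_eq_closure, Subgroup.centralizer_closure]
  set K := (MonoidHom.transferSylow R hcent).ker
  have hK := MonoidHom.ker_transferSylow_isComplement' R hcent
  have hKidx : K.index = 37 := by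
    rw [hK.symm.index_eq_card, hR, Nat.card_zpowers, hy]
  have hKcard : Nat.card K = 11880 := by
    have := K.card_mul_index
    rw [hKidx, hH] at this
    omega
  obtain ⟨P⟩ : Nonempty (Sylow 11 ↥K) := inferInstance
  have hP11 : 11 ∣ Nat.card (P : Subgroup ↥K) := by
    simpa using P.pow_dvd_card_of_pow_dvd_card (n := 1) (by rw [hKcard]; norm_num)
  set P' : Subgroup ↥H := (P : Subgroup ↥K).map K.subtype with hP'
  have hP'p : IsPGroup 11 ↥P' := P.isPGroup'.map _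
  obtain ⟨L, hL⟩ := hP'p.nonempty_fixed_point_of_prime_not_dvd_card (Pt 11 F)
    (by rw [card_Pt hF]; norm_num)
  obtain ⟨⟨u, hu⟩, huo⟩ := exists_prime_orderOf_dvd_card' (G := ↥P') 11
    (by rwa [hP', Subgroup.card_map_of_injective K.subtype_injective])
  have hu' : orderOf (u : ↥(SU 3 F 11)) = 11 := by
    exact (Subgroup.orderOf_coe u).trans ((Subgroup.orderOf_coe (⟨u, hu⟩ : ↥P')).trans huo)
  have hNK : Subgroup.normalizer (P' : Set ↥H) ≤ K := by
    intro g hg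
    have hgL : g • L = L := by
      have h1 : g⁻¹ * u * g ∈ P' := (Subgroup.mem_normalizer_iff''.1 hg u).1 hu
      have h2 : (g⁻¹ * u * g) • L = L := hL ⟨_, h1⟩
      refine fixed_unique hF 11 (j := 1) (by rw [pow_one]; exact orderOf_dvd_iff_pow_eq_one.1 (dvd_of_eq hu'))
        (fun h => by rw [h, orderOf_one] at hu'; norm_num at hu') ?_ (hL ⟨u, hu⟩)
      show u • g • L = g • L
      rw [mul_smul, mul_smul, inv_smul_eq_iff] at h2
      exact h2
    -- `g` has order prime to the index of `K`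
    have hord : orderOf g ∣ 330 := hst L ▸ Subgroup.orderOf_dvd_natCard _ (show g ∈ MulAction.stabilizer ↥H L from hgL)
    rw [← QuotientGroup.eq_one_iff (N := K), ← orderOf_eq_one_iff]
    refine Nat.eq_one_of_dvd_coprimes (a := 330) (b := 37) (by norm_num)
      ((orderOf_map_dvd (QuotientGroup.mk' K) g).trans hord) ?_
    exact (orderOf_dvd_natCard _).trans (dvd_of_eq hKidx)
  have htop := Sylow.normalizer_sup_eq_top P
  rw [← hP', sup_eq_right.2 hNK] at htop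
  rw [htop, Subgroup.index_top] at hKidx
  norm_num at hKidx

end CfsgLib.MinIndexPSU3
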