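import Mathlib
import Cfsg.Agent.MinIndexPSU3.Small
import Cfsg.Agent.MinIndexPSU3.Even

/-!
A proper subgroup of `SU₃(q)`, `q ≠ 5`, containing the centre has index at least `q³ + 1`.
-/

set_option autoImplicit false

namespace CfsgLib.MinIndexPSU3

open Cfsg CfsgLib.Unitary MulAction
open scoped Matrix

variable {F : Type*} [Field F] [Fintype F] {q : ℕ} {H : Subgroup ↥(SU 3 F q)}

theorem card_ker_le {v w f : Fin 3 → F} (fr : Frame q v w f) (hF : Fintype.card F = q ^ 2) {m : ℕ}
    (hm : 0 < m)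
    (h : ∀ a : F, a ^ (q + 1) = 1 →
      (∃ g : ↥(lineStab H v), (eigHom H v fr.v_ne g : F) = a) → a ^ m = 1) :
    Nat.card (chordHom fr hF H).ker ≤ m := by
  classical
  haveI : NeZero m := ⟨hm.ne'⟩
  choose a ha1 hav haf using fun g : ↥(chordHom fr hF H).ker => ker_chordHom_spec fr hF g.2
  have hm' : ∀ g, a g ^ m = 1 := by
    intro g
    refine h _ (ha1 g) ?_
    have hg : ((g : ↥(midStab H w)) : ↥(SU 3 F q)) ∈ lineStab H v :=
      ⟨(g : ↥(midStab H w)).2.1, a g, fun h0 => sv_ne_zero _ fr.v_ne (by rw [hav g, h0, zero_smul]), hav g⟩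
    exact ⟨⟨_, hg⟩, (eigHom_eq_iff fr.v_ne _ _).2 (hav g)⟩
  refine le_trans (Nat.card_le_card_of_injective
    (fun g => rootsOfUnity.mkOfPowEq (a g) (hm' g)) fun g g' hgg => ?_) ?_
  · have he : a g = a g' := by
      simpa using congrArg (fun x : rootsOfUnity m F => ((x : Fˣ) : F)) hgg
    exact Subtype.ext (ker_chordHom_injective fr hF g.2 g'.2 (hav g) (by rw [he]; exact hav g'))
  · exact card_rootsOfUnity F m

/-- Without root elements the stabiliser of a norm one line has order prime to the characteristic. -/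
theorem not_dvd_card_midStab (hF : Fintype.card F = q ^ 2) (p : ℕ) [Fact p.Prime] [CharP F p]
    (hroot : ∀ v : Fin 3 → F, v ≠ 0 → hermForm 3 F q v v = 0 → rootV H v = ⊥) {u : Fin 3 → F}
    (huu : hermForm 3 F q u u = 1) : ¬ p ∣ Nat.card (midStab H u) := by
  intro hdvd
  obtain ⟨⟨g, hgH, m, hm0, hm⟩, hg⟩ := exists_prime_orderOf_dvd_card' (G := ↥(midStab H u)) p hdvd
  have hgo : orderOf g = p := (Subgroup.orderOf_coe (⟨g, hgH, m, hm0, hm⟩ : ↥(midStab H u))).trans hg
  have hgp : g ^ p ^ 1 = 1 := by rw [pow_one, ← hgo, pow_orderOf_eq_one]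
  have hg1 : g ≠ 1 := fun h => (Fact.out : p.Prime).ne_one (by rw [← hgo, h, orderOf_one])
  have hR : IsPGroup p ↥(Subgroup.zpowers g) :=
    IsPGroup.of_card (n := 1) (by rw [Nat.card_zpowers, hgo, pow_one])
  obtain ⟨L, hL⟩ := hR.nonempty_fixed_point_of_prime_not_dvd_card (Pt q F) (by
    rw [card_Pt hF]
    obtain ⟨p', e, hp', hch, he, hqe⟩ := exists_char hF
    obtain rfl : p' = p := CharP.eq F hch ‹CharP F p›
    intro h
    have h1 : p' ∣ q ^ 3 := hqe ▸ dvd_pow (dvd_pow_self p' he.ne') (by norm_num)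
    exact hp'.not_dvd_one ((Nat.dvd_add_right h1).1 h))
  have hgL : g • L = L := hL ⟨g, Subgroup.mem_zpowers g⟩
  obtain ⟨v, hv0, hvv, rfl⟩ := exists_eq_pt L
  obtain ⟨a, ha⟩ := (smul_pt_eq_iff g hv0 hvv).1 hgL
  have hu0 : u ≠ 0 := fun h => by rw [h, herm_zero_left] at huu; exact zero_ne_one huu
  have hgv := sv_eq_self_of_pow p hgp hv0 ha
  have hgu := sv_eq_self_of_pow p hgp hu0 hm
  obtain ⟨w, f, fr⟩ := exists_frame hF hv0 hvv
  obtain ⟨gw, gf, -⟩ := fr.unip hF hgv
  set b := bCoord q w f g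
  set c := cCoord q f g
  have hb : b ≠ 0 := by
    intro h
    have := (fr.mem_rootV_iff hF).2 ⟨(⟨hgH, hgv⟩ : g ∈ fixV H v), h⟩
    rw [hroot v hv0 hvv, Subgroup.mem_bot] at this
    exact hg1 this
  have e := fr.expand hF u
  set x1 := hermForm 3 F q u f
  set x2 := hermForm 3 F q u w
  set x3 := hermForm 3 F q u v
  have h1 : (x3 * c - x2 * b ^ q) • v + (x3 * b) • w + (0 : F) • f = 0 := by
    have h2 := hgu
    rw [e, sv_add, sv_add, sv_smul, sv_smul, sv_smul, hgv, gw, gf] at h2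
    linear_combination (norm := module) h2
  obtain ⟨k1, k2, -⟩ := fr.coord hF (x3 * c - x2 * b ^ q) (x3 * b) 0
  rw [h1, herm_zero_left] at k1 k2
  have hx3 : x3 = 0 := (mul_eq_zero.1 k2.symm).resolve_right hb
  rw [hx3, zero_mul, zero_sub, zero_eq_neg] at k1
  have hx2 : x2 = 0 := (mul_eq_zero.1 k1).resolve_right (pow_ne_zero q hb)
  rw [hx2, hx3, zero_smul, zero_smul, add_zero, add_zero] at e
  rw [e, herm_smul_left, herm_smul_right, fr.vv, mul_zero, mul_zero] at huu
  exact zero_ne_one huu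

/-- With an involution `refl u` in `H` every eigenvalue at a point orthogonal to `u` is realised by an
element fixing the line of `u`. -/
theorem eigCard_le_mid (hF : Fintype.card F = q ^ 2) (hodd : Odd q) (p : ℕ) [Fact p.Prime] [CharP F p]
    (u : {u : Fin 3 → F // hermForm 3 F q u u = 1}) (hs : refl hF u ∈ H) {y : Fin 3 → F} (hy0 : y ≠ 0)
    (hyy : hermForm 3 F q y y = 0) (hyu : hermForm 3 F q y u.1 = 0) (hroot : rootV H y = ⊥) :
    eigCard H y hy0 ≤ Nat.card (lineStab (midStab H u.1) y) := by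
  classical
  have h2 : (2 : F) ≠ 0 := two_ne_zero_of_odd hF hodd
  have hsy : sv (refl hF u) y = (-1 : F) • y := by
    rw [sv_refl, hyu, mul_zero, zero_smul, add_zero, neg_one_smul]
  have key : ∀ a : ↥(eigHom H y hy0).range, ∃ h : ↥(lineStab (midStab H u.1) y),
      sv (h : ↥(SU 3 F q)) y = ((a : Fˣ) : F) • y := by
    rintro ⟨a, g, rfl⟩
    obtain ⟨x, hx, hcomm⟩ := exists_commute hroot hF hodd hy0 hyy p hs hsy g.2
    have hgy : sv ((g : ↥(SU 3 F q)) * x) y = (eigHom H y hy0 g : F) • y := by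
      rw [sv_mul, hx.2, sv_eq_eigHom hy0]
    set k := (g : ↥(SU 3 F q)) * x
    have h1 : sv (refl hF u) (sv k u.1) = sv k u.1 := by
      rw [← sv_mul, hcomm.eq, sv_mul, sv_refl_self]
    rw [sv_refl] at h1
    set m := hermForm 3 F q (sv k u.1) u.1
    have h3 : (2 : F) • (sv k u.1 - m • u.1) = 0 := by linear_combination (norm := module) -h1
    have h4 : sv k u.1 = m • u.1 := sub_eq_zero.1 ((smul_eq_zero.1 h3).resolve_left h2)
    have hu0 : u.1 ≠ 0 := fun h => by
      have := u.2; rw [h, herm_zero_left] at this; exact zero_ne_one this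
    have hmid : k ∈ midStab H u.1 := ⟨mul_mem g.2.1 hx.1, m,
      fun h0 => sv_ne_zero k hu0 (by rw [h4, h0, zero_smul]), h4⟩
    exact ⟨⟨k, hmid, _, Units.ne_zero _, hgy⟩, hgy⟩
  choose φ hφ using key
  refine Nat.card_le_card_of_injective φ fun a b h => Subtype.ext (Units.ext ?_)
  have := hφ b
  rw [← h, hφ a] at this
  exact smul_left_injective F hy0 this

/-- A subgroup of large order is everything. -/
theorem Large.eq_top (hL : Large H) (hF : Fintype.card F = q ^ 2) (hq : 3 ≤ q) (h5 : q ≠ 5)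
    (hZ : Subgroup.center ↥(SU 3 F q) ≤ H) : H = ⊤ := by
  classical
  obtain ⟨p, e, hp, hch, he, hqe⟩ := exists_char hF
  haveI : Fact p.Prime := ⟨hp⟩
  have hpq : p ∣ q := hqe ▸ dvd_pow_self p he.ne'
  have hU : Nat.card Fˣ = q ^ 2 - 1 := by rw [Nat.card_units, Nat.card_eq_fintype_card, hF]
  have hsq : 3 * q ≤ q ^ 2 := by rw [pow_two]; exact Nat.mul_le_mul_right q hq
  -- a base point
  obtain ⟨c₁, hc₁⟩ := exists_norm_eq hF (a := (1 : F)) (one_pow q)
  obtain ⟨v, f, fr⟩ := exists_frame_of_norm_one hF (u := (Pi.single 0 1 : Fin 3 → F))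
    (by rw [herm_single_single hF]; simp)
  set w : Fin 3 → F := Pi.single 0 1
  have hconj := fun (y : Fin 3 → F) (hy0 : y ≠ 0) (hyy : hermForm 3 F q y y = 0) =>
    hL.card_conj_eq hF p fr.v_ne fr.vv hy0 hyy
  have hcardH := hL.card_eq hF p fr.v_ne fr.vv
  have hfix := hL.le_fix_mul hF fr.v_ne fr.vv
  obtain ⟨k, hk⟩ := (isPGroup_fixV hF p fr.v_ne fr.vv (H := H)).exists_card_eq
  obtain ⟨z, hz⟩ : ∃ z, z = Nat.card (rootV H v) := ⟨_, rfl⟩
  obtain ⟨P, hP⟩ : ∃ P, P = Nat.card (fixV H v) := ⟨_, rfl⟩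
  obtain ⟨t, ht⟩ : ∃ t, t = eigCard H v fr.v_ne := ⟨_, rfl⟩
  rw [← hP] at hk hfix hcardH
  rw [← ht] at hfix hcardH
  have htdvd : t ∣ q ^ 2 - 1 := ht ▸ eigCard_dvd hF fr.v_ne
  have hzpos : 0 < z := hz ▸ Nat.card_pos
  by_cases hz1 : 1 < z
  · -- root elements
    have hall : ∀ o : Option {c : F // c + c ^ q = 0}, rootV H (chordVec v f o) ≠ ⊥ := by
      intro o hbot
      have h1 := (hconj _ (fr.chordVec_spec hF o).1 (fr.chordVec_spec hF o).2.1).2.1
      rw [hbot, Subgroup.card_bot, ← hz] at h1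
      omega
    rcases chord_root fr hF hq p hz.symm hz1 hall with hfull | ⟨rfl, hz2⟩ | ⟨rfl, hz3, hq19⟩
    · exact hL.eq_top_of_full hF hq p fr.v_ne fr.vv
        (le_antisymm (card_rootV_le hF fr.v_ne fr.vv) (hz ▸ hfull))
    · exfalso
      have h2 : (2 : F) = 0 := CharP.cast_eq_zero F 2
      have h8 : P ≤ 8 := hP ▸ card_fixV_le_eight hF h2 fr.v_ne fr.vv (hz.symm.trans hz2)
      have htq : t ∣ (2 - 1) * (q + 1) := ht ▸ eigCard_dvd_of fr.v_ne fun g =>
        eig_pow_of_small_root hF fr.v_ne fr.vv (hz.symm.trans hz2) (Or.inl rfl) g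
      rw [show (2 - 1) * (q + 1) = q + 1 by omega] at htq
      have htle : t ≤ q + 1 := Nat.le_of_dvd (by omega) htq
      have h3 : q ^ 2 - 1 ≤ 8 * (q + 1) := hfix.trans (Nat.mul_le_mul h8 htle)
      have hq9 : q ≤ 9 := by
        by_contra hgt
        have : 10 * q ≤ q ^ 2 := by rw [pow_two]; exact Nat.mul_le_mul_right q (by omega)
        omega
      have hk3 : k ≤ 3 := (Nat.pow_le_pow_iff_right (by norm_num : 1 < 2)).1 (by rw [← hk]; exact h8)
      have he3 : e ≤ 3 := by
        by_contra hgt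
        have : 2 ^ 4 ≤ 2 ^ e := Nat.pow_le_pow_right (by norm_num) (by omega)
        omega
      have hPc : P = 1 ∨ P = 2 ∨ P = 4 ∨ P = 8 := by
        rw [hk]; interval_cases k <;> norm_num
      interval_cases e
      · omega
      · norm_num at hqe
        subst hqe
        norm_num at htq hfix htle
        have hcardH' : Nat.card H = 65 * (P * t) := hcardH.trans (by norm_num)
        have ht5 : t = 1 ∨ t = 5 := (Nat.dvd_prime (by norm_num)).1 htq
        rcases ht5 with h | h <;> rw [h] at hfix hcardH'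
        · omega
        · exact case_four hF H (P := P) (by omega) hcardH'
      · norm_num at hqe
        subst hqe
        norm_num at htq hfix htle
        have hcardH' : Nat.card H = 513 * (P * t) := hcardH.trans (by norm_num)
        have ht9 : t ∈ Nat.divisors 9 := Nat.mem_divisors.2 ⟨htq, by norm_num⟩
        rw [show Nat.divisors 9 = {1, 3, 9} by decide] at ht9
        simp only [Finset.mem_insert, Finset.mem_singleton] at ht9
        have hPt : P = 8 ∧ t = 9 := by
          rcases hPc with h | h | h | h <;> rw [h] at hfix <;> omega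
        exact case_eight hF H (by rw [hcardH', hPt.1, hPt.2])
    · by_cases hq3 : q ≤ 3
      · exact hL.eq_top_of_full hF hq 3 fr.v_ne fr.vv
          (le_antisymm (card_rootV_le hF fr.v_ne fr.vv) (by rw [← hz]; omega))
      exfalso
      have he2 : e = 2 := by
        rcases (show e = 1 ∨ e = 2 ∨ 3 ≤ e by omega) with h | h | h
        · rw [h, pow_one] at hqe; omega
        · exact h
        · have : 3 ^ 3 ≤ 3 ^ e := Nat.pow_le_pow_right (by norm_num) h
          omega
      subst he2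
      norm_num at hqe
      subst hqe
      norm_num at hfix
      have hcardH' : Nat.card H = 730 * (P * t) := hcardH.trans (by norm_num)
      have htq : t ∣ (3 - 1) * (9 + 1) := ht ▸ eigCard_dvd_of fr.v_ne fun g =>
        eig_pow_of_small_root hF fr.v_ne fr.vv (hz.symm.trans hz3) (Or.inr rfl) g
      norm_num at htq
      have hd : P ∣ 730 * 80 * 729 := by
        have h1 : P ∣ Nat.card H := by rw [hcardH']; exact dvd_mul_of_dvd_right (dvd_mul_right _ _) _
        have h2 := h1.trans (Subgroup.card_subgroup_dvd_card H)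
        have h3 := card_SU hF 3 (by norm_num)
        simp [Finset.prod_range_succ, show ¬ Even 1 by decide, show Even 2 by decide,
          -Nat.card_eq_fintype_card] at h3
        refine h2.trans ?_
        have : Nat.card ↥(SU 3 F 9) = 730 * 80 * 729 := by omega
        rw [this]
      have hk6 : k < 7 := by
        by_contra hgt
        exact absurd ((hk ▸ pow_dvd_pow 3 (by omega : 7 ≤ k)).trans hd) (by norm_num)
      exact case_nine hF H hk6 htq (by rw [← hk]; exact hfix) (by rw [hcardH', hk])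
  -- no root elements
  exfalso
  have hroot : ∀ y : Fin 3 → F, y ≠ 0 → hermForm 3 F q y y = 0 → rootV H y = ⊥ := fun y hy0 hyy => by
    refine Subgroup.eq_bot_of_card_eq _ ?_
    rw [← (hconj y hy0 hyy).2.1, ← hz]
    omega
  have hPq : P ≤ q := hP ▸ card_fixV_le (hroot v fr.v_ne fr.vv) hF fr.v_ne fr.vv
  rcases Nat.even_or_odd q with hqev | hodd
  · have hp2 : p = 2 := by
      obtain ⟨j, hj⟩ := hqev
      exact ((Nat.prime_dvd_prime_iff_eq Nat.prime_two hp).1
        (Nat.prime_two.dvd_of_dvd_pow (show 2 ∣ p ^ e from hqe ▸ ⟨j, by omega⟩))).symm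
    subst hp2
    have h2 : (2 : F) = 0 := CharP.cast_eq_zero F 2
    refine even_false hF hq hqev (H := H)
      (fun y hy0 hyy => fixV_eq_bot_of_even (hroot y hy0 hyy) hF h2 hy0 hyy) fun y hy0 hyy => ?_
    have hy := hL.le_fix_mul hF hy0 hyy
    rw [fixV_eq_bot_of_even (hroot y hy0 hyy) hF h2 hy0 hyy, Subgroup.card_bot, one_mul] at hy
    exact le_antisymm (Nat.le_of_dvd (by omega) (eigCard_dvd hF hy0)) hy
  -- odd characteristic
  have h2 : (2 : F) ≠ 0 := two_ne_zero_of_odd hF hodd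
  obtain ⟨s, hs, hs1, hs2⟩ : ∃ s ∈ H, s ≠ 1 ∧ s * s = 1 := by
    have hev : 2 ∣ Nat.card H := by
      rw [hcardH]
      refine dvd_mul_of_dvd_left ?_ _
      exact (Odd.add_odd (hodd.pow) odd_one).two_dvd
    obtain ⟨s, hs⟩ := exists_prime_orderOf_dvd_card' (G := ↥H) 2 hev
    refine ⟨s, s.2, fun h => ?_, ?_⟩
    · have : s = 1 := Subtype.ext h
      rw [this, orderOf_one] at hs
      norm_num at hs
    · have := pow_orderOf_eq_one s
      rw [hs, pow_two] at this
      exact congrArg Subtype.val this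
  obtain ⟨u, rfl⟩ := exists_eq_refl hF h2 s hs1 hs2
  obtain ⟨v', f', fr'⟩ := exists_frame_of_norm_one hF u.2
  have hpM := not_dvd_card_midStab hF p hroot u.2 (H := H)
  have hstab : ∀ o : Option {c : F // c + c ^ q = 0},
      t ≤ Nat.card (lineStab (midStab H u.1) (chordVec v' f' o)) := by
    intro o
    obtain ⟨hy0, hyy, huy⟩ := fr'.chordVec_spec hF o
    rw [ht, (hconj _ hy0 hyy).2.2]
    exact eigCard_le_mid hF hodd p u hs hy0 hyy (herm_eq_zero_comm hF huy) (hroot _ hy0 hyy)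
  have few : ∀ (m κ : ℕ), 0 < m → 4 ≤ κ → κ * m ≤ t →
      (∀ a : F, a ^ (q + 1) = 1 →
        (∃ g : ↥(lineStab H v'), (eigHom H v' fr'.v_ne g : F) = a) → a ^ m = 1) →
      q + 1 ≤ 12 ∧ (6 ≤ κ → q + 1 ≤ 2) := fun m κ hm hκ hle hroots =>
    chord_few fr' hF p hpM hκ fun o => (Nat.mul_le_mul_left κ (card_ker_le fr' hF hm hroots)).trans
      (hle.trans (hstab o))
  by_cases hP1 : P = 1
  · -- semisimple stabilisers
    rw [hP1, one_mul] at hfix hcardH
    have htq : t = q ^ 2 - 1 := le_antisymm (Nat.le_of_dvd (by omega) htdvd) hfix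
    by_cases hq7 : 7 ≤ q
    · have hmul : (q - 1) * (q + 1) = q ^ 2 - 1 := by
        rw [mul_comm, ← Nat.sq_sub_sq, one_pow]
      have := (few (q + 1) (q - 1) (by omega) (by omega) (by rw [htq, hmul]) fun a ha _ => ha).2 (by omega)
      omega
    · have hq3 : q = 3 := by
        obtain ⟨j, hj⟩ := hodd
        omega
      subst hq3
      norm_num at htq
      rw [htq] at hcardH
      have hp3 : p = 3 := (Nat.prime_dvd_prime_iff_eq hp Nat.prime_three).1 hpq
      subst hp3
      exact case_three hF H (hcardH.trans (by norm_num))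
  -- abelian unipotent parts
  have hne : ∀ y (hy0 : y ≠ 0), hermForm 3 F q y y = 0 → fixV H y ≠ ⊥ := by
    intro y hy0 hyy hbot
    have h1 := (hconj y hy0 hyy).1
    rw [hbot, Subgroup.card_bot] at h1
    exact hP1 (hP.trans h1)
  have hd3 : t ∣ 3 * (q - 1) := ht ▸ eigCard_dvd_of fr.v_ne fun g =>
    eig_pow_of_fixV (hroot v fr.v_ne fr.vv) hF fr.v_ne fr.vv (hne v fr.v_ne fr.vv) g
  have hqsq : q ^ 2 - 1 = (q - 1) * (q + 1) := by rw [mul_comm, ← Nat.sq_sub_sq, one_pow]
  have htgt : q - 1 < t := by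
    by_contra hle
    have h1 : P * t ≤ q * (q - 1) := Nat.mul_le_mul hPq (by omega)
    have h2 : q * (q - 1) < (q - 1) * (q + 1) := by
      rw [mul_comm q]; exact Nat.mul_lt_mul_of_pos_left (by omega) (by omega)
    omega
  obtain ⟨j, hj⟩ := hd3
  have hj2 : j = 1 ∨ j = 2 := by
    rcases (show j = 0 ∨ j = 1 ∨ j = 2 ∨ 3 ≤ j by omega) with h | h | h | h
    · rw [h, mul_zero] at hj; omega
    · exact Or.inl h
    · exact Or.inr h
    · have : t * 3 ≤ t * j := Nat.mul_le_mul_left t h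
      omega
  have hker : ∀ a : F, a ^ (q + 1) = 1 →
      (∃ g : ↥(lineStab H v'), (eigHom H v' fr'.v_ne g : F) = a) → a ^ 6 = 1 := by
    rintro a ha ⟨g, rfl⟩
    have h1 := eig_pow_of_fixV (hroot v' fr'.v_ne fr'.vv) hF fr'.v_ne fr'.vv (hne v' fr'.v_ne fr'.vv) g
    calc _ = (eigHom H v' fr'.v_ne g : F) ^ 6 * (eigHom H v' fr'.v_ne g : F) ^ (3 * (q - 1)) := by
          rw [h1, mul_one]
      _ = ((eigHom H v' fr'.v_ne g : F) ^ (q + 1)) ^ 3 := by
          rw [← pow_add, ← pow_mul, show 6 + 3 * (q - 1) = (q + 1) * 3 by omega]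
      _ = 1 := by rw [ha, one_pow]
  by_cases hbig : 4 * 6 ≤ t
  · have := (few 6 4 (by norm_num) le_rfl hbig hker).1
    have hq11 : q = 11 := by
      obtain ⟨i, hi⟩ := hodd
      rcases (show q = 3 ∨ q = 7 ∨ q = 9 ∨ q = 11 by omega) with h | h | h | h <;>
        first | exact h | (exfalso; subst h; have hg := Nat.le_of_dvd (by norm_num) (Nat.dvd_gcd ⟨j, hj⟩ htdvd); norm_num at hg; omega)
    subst hq11
    norm_num at hj hfix hqsq
    have ht30 : t = 30 := by rcases hj2 with h | h <;> subst h <;> omega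
    rw [ht30] at hfix hcardH
    have hp11 : p = 11 := (Nat.prime_dvd_prime_iff_eq hp (by norm_num)).1 hpq
    subst hp11
    have hP11 : P = 11 := by
      rcases (show k = 0 ∨ k = 1 ∨ 2 ≤ k by omega) with h | h | h
      · rw [h, pow_zero] at hk; omega
      · rw [h, pow_one] at hk; exact hk
      · have : 11 ^ 2 ≤ 11 ^ k := Nat.pow_le_pow_right (by norm_num) h
        omega
    rw [hP11] at hcardH
    refine case_eleven hF H (hcardH.trans (by norm_num)) hZ fun L => ?_
    obtain ⟨y, hy0, hyy, rfl⟩ := exists_eq_pt L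
    obtain ⟨e1, -, e3⟩ := hconj y hy0 hyy
    rw [← card_lineStab_eq_stabilizer hy0 hyy, card_lineStab hy0, ← e1, ← e3, ← hP, ← ht, hP11, ht30]
  · have hlt : q ≤ 17 := by rcases hj2 with h | h <;> subst h <;> omega
    have hq11 : q = 11 ∨ q = 13 ∨ q = 3 ∨ q = 7 ∨ q = 9 ∨ q = 15 ∨ q = 17 := by
      obtain ⟨i, hi⟩ := hodd
      omega
    have htev : 2 ∣ t := by
      have hs' : refl hF u ∈ lineStab H v' := ⟨hs, -1, neg_ne_zero.2 one_ne_zero, by
        rw [sv_refl, fr'.vw, mul_zero, zero_smul, add_zero, neg_one_smul]⟩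
      rw [ht, (hconj v' fr'.v_ne fr'.vv).2.2, eigCard]
      have hm1 : (eigHom H v' fr'.v_ne).rangeRestrict ⟨_, hs'⟩ ≠ 1 := by
        intro h
        have h1 : (eigHom H v' fr'.v_ne ⟨_, hs'⟩ : F) = -1 := (eigHom_eq_iff _ _ _).2 (by
          rw [sv_refl, fr'.vw, mul_zero, zero_smul, add_zero, neg_one_smul])
        rw [show eigHom H v' fr'.v_ne ⟨_, hs'⟩ = 1 from congrArg Subtype.val h, Units.val_one] at h1
        exact h2 (by linear_combination h1)
      rw [← orderOf_eq_prime (p := 2) (x := (eigHom H v' fr'.v_ne).rangeRestrict ⟨_, hs'⟩)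
        (by rw [← map_pow, show (⟨_, hs'⟩ : ↥(lineStab H v')) ^ 2 = 1 from
          Subtype.ext (by rw [SubgroupClass.coe_pow, pow_two]; exact hs2), map_one]) hm1]
      exact orderOf_dvd_natCard _
    have hg : t ∣ Nat.gcd (3 * (q - 1)) (q ^ 2 - 1) := Nat.dvd_gcd ⟨j, hj⟩ htdvd
    rcases hq11 with h | h | h | h | h | h | h <;> subst h <;> norm_num at hj hg htgt <;>
      have := Nat.le_of_dvd (by norm_num) hg <;>
      rcases hj2 with h | h <;> subst h <;> omega

/-- The index form. -/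
theorem le_index (hF : Fintype.card F = q ^ 2) (hq : 3 ≤ q) (h5 : q ≠ 5)
    (hZ : Subgroup.center ↥(SU 3 F q) ≤ H) (hH : H ≠ ⊤) : q ^ 3 + 1 ≤ H.index := by
  by_contra hlt
  apply hH
  refine Large.eq_top ?_ hF hq h5 hZ
  have h := H.card_mul_index
  have hG : Nat.card ↥(SU 3 F q) = q ^ 3 * ((q ^ 2 - 1) * (q ^ 3 + 1)) := by
    have h1 := card_SU hF 3 (by norm_num)
    simp [Finset.prod_range_succ, show ¬ Even 1 by decide, show Even 2 by decide] at h1
    have hq1 : 0 < q + 1 := by omega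
    refine Nat.eq_of_mul_eq_mul_left hq1 ?_
    rw [h1]; ring
  rw [hG] at h
  have h1 : Nat.card H * H.index ≤ Nat.card H * q ^ 3 := Nat.mul_le_mul_left _ (by omega)
  rw [h, mul_comm (Nat.card H)] at h1
  have := Nat.le_of_mul_le_mul_left h1 (by positivity)
  rw [Large, mul_comm]
  exact this

end CfsgLib.MinIndexPSU3
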